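import Mathlib
import Cfsg.Agent.Lib.Classical.Herm.Tv
import Cfsg.Agent.Lib.Classical.Herm.Block
import Cfsg.Agent.Lib.Classical.Herm.HermOnb
import Cfsg.Agent.Lib.Classical.Herm.Hilbert90
import Cfsg.Prelude.Def_GeometricClasses

/-!
# Complementary pairs of totally singular subspaces of a Hermitian space

Frames adapted to a pair, and the linear group of the first member acting on a pair.
-/

set_option autoImplicit false
set_option linter.unusedSectionVars false
set_option linter.unusedSimpArgs false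
set_option linter.unusedVariables false

open scoped Matrix MatrixGroups
open Module
open Cfsg Cfsg.Agent.Lib.Classical.Herm.Basic Cfsg.Agent.Lib.Classical.Herm.Form
open Cfsg.Agent.Lib.Classical.Herm.GU Cfsg.Agent.Lib.Classical.Herm.SU

namespace Cfsg.Agent.Lib.Classical.PairU

variable {F : Type*} [Field F] [Fintype F] {q n m : ℕ}

local notation "⟪" x ", " y "⟫" => hermForm _ _ q x y

/-- A complementary pair of totally singular subspaces. -/
structure IsTIPair (q : ℕ) (A B : Submodule F (Fin n → F)) : Prop where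
  compl : IsCompl A B
  tiA : ∀ u ∈ A, ∀ v ∈ A, hermForm n F q u v = 0
  tiB : ∀ u ∈ B, ∀ v ∈ B, hermForm n F q u v = 0

theorem IsTIPair.symm {A B : Submodule F (Fin n → F)} (h : IsTIPair q A B) : IsTIPair q B A :=
  ⟨h.compl.symm, h.tiB, h.tiA⟩

theorem IsTIPair.eq_zero_of_perp (hF : Fintype.card F = q ^ 2) {A B : Submodule F (Fin n → F)}
    (h : IsTIPair q A B) {v : Fin n → F} (hv : v ∈ B) (hp : ∀ u ∈ A, ⟪u, v⟫ = 0) : v = 0 := by
  apply hermForm_nondegenerate_right hF n v
  intro w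
  have hw : w ∈ A ⊔ B := by rw [h.compl.sup_eq_top]; trivial
  obtain ⟨a, ha, b, hb, rfl⟩ := Submodule.mem_sup.1 hw
  rw [hermForm_add_left, hp a ha, h.tiB b hb v hv, add_zero]

/-- The (linearised) pairing of a space with a family of vectors. -/
noncomputable def pairing (hF : Fintype.card F = q ^ 2) {k : ℕ} (e : Fin k → Fin n → F)
    (B : Submodule F (Fin n → F)) : B →ₗ[F] (Fin k → F) where
  toFun v i := (hermForm n F q (e i) (v : Fin n → F)) ^ q
  map_add' x y := by
    funext i
    simp only [Submodule.coe_add, hermForm_add_right hF, pow_q_add hF, Pi.add_apply]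
  map_smul' c x := by
    funext i
    simp only [Submodule.coe_smul, hermForm_smul_right, mul_pow, pow_q_pow_q hF, Pi.smul_apply,
      smul_eq_mul, RingHom.id_apply]

theorem pairing_apply (hF : Fintype.card F = q ^ 2) {k : ℕ} (e : Fin k → Fin n → F)
    (B : Submodule F (Fin n → F)) (v : B) (i : Fin k) :
    pairing hF e B v i = (hermForm n F q (e i) (v : Fin n → F)) ^ q := rfl

theorem IsTIPair.pairing_injective (hF : Fintype.card F = q ^ 2) {A B : Submodule F (Fin n → F)}
    (h : IsTIPair q A B) {k : ℕ} (b : Basis (Fin k) F A) :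
    Function.Injective (pairing hF (fun i => (b i : Fin n → F)) B) := by
  rw [← LinearMap.ker_eq_bot, LinearMap.ker_eq_bot']
  intro v hv
  have hv0 : (v : Fin n → F) = 0 := by
    apply h.eq_zero_of_perp hF v.2
    intro u hu
    have h1 : ∀ i, ⟪(b i : Fin n → F), (v : Fin n → F)⟫ = 0 := by
      intro i
      have := congrFun hv i
      rw [pairing_apply] at this
      have h2 := congrArg (· ^ q) this
      simpa [pow_q_pow_q hF, zero_pow_q hF] using h2
    have hu' : u = ∑ i, (b.repr ⟨u, hu⟩ i) • (b i : Fin n → F) := by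
      have h3 : ((∑ i, b.repr ⟨u, hu⟩ i • b i : A) : Fin n → F) = u := by rw [b.sum_repr]
      rw [Submodule.coe_sum] at h3
      simpa using h3.symm
    rw [hu', hermForm_sum_left]
    exact Finset.sum_eq_zero fun i _ => by rw [h1 i, mul_zero]
  exact Subtype.ext hv0

theorem IsTIPair.finrank_le (hF : Fintype.card F = q ^ 2) {A B : Submodule F (Fin n → F)}
    (h : IsTIPair q A B) : finrank F B ≤ finrank F A := by
  have h1 := LinearMap.finrank_le_finrank_of_injective (h.pairing_injective hF (finBasis F A))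
  simpa using h1

theorem IsTIPair.finrank_eq (hF : Fintype.card F = q ^ 2) {A B : Submodule F (Fin n → F)}
    (h : IsTIPair q A B) : finrank F B = finrank F A :=
  le_antisymm (h.finrank_le hF) (h.symm.finrank_le hF)

theorem IsTIPair.two_mul_finrank (hF : Fintype.card F = q ^ 2) {A B : Submodule F (Fin n → F)}
    (h : IsTIPair q A B) : 2 * finrank F A = n := by
  have h1 := Submodule.finrank_add_eq_of_isCompl h.compl
  rw [h.finrank_eq hF] at h1
  simp at h1
  omega

/-- A frame adapted to a pair. -/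
theorem IsTIPair.exists_frame (hF : Fintype.card F = q ^ 2) {A B : Submodule F (Fin n → F)}
    (h : IsTIPair q A B) (hm : 2 * m = n) :
    ∃ t : Fin m ⊕ Fin m → Fin n → F,
      (∀ s s', ⟪t s, t s'⟫ = if s = s'.swap then 1 else 0) ∧
      (∀ i, t (Sum.inl i) ∈ A) ∧ (∀ i, t (Sum.inr i) ∈ B) := by
  classical
  have hA : finrank F A = m := by have := h.two_mul_finrank hF; omega
  have hB : finrank F B = m := by rw [h.finrank_eq hF]; exact hA
  let b : Basis (Fin m) F A := finBasisOfFinrankEq F A hA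
  have hinj := h.pairing_injective hF b
  have hsurj : Function.Surjective (pairing hF (fun i => (b i : Fin n → F)) B) := by
    refine (LinearMap.injective_iff_surjective_of_finrank_eq_finrank ?_).1 hinj
    rw [hB]
    simp
  choose f hf using fun j : Fin m => hsurj (Pi.single j 1)
  have hef : ∀ i j, ⟪(b i : Fin n → F), (f j : Fin n → F)⟫ = if i = j then 1 else 0 := by
    intro i j
    have h1 := congrFun (hf j) i
    rw [pairing_apply] at h1
    have h2 := congrArg (· ^ q) h1
    simp only [pow_q_pow_q hF] at h2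
    rw [h2]
    by_cases hij : i = j
    · subst hij
      simp
    · simp [hij, zero_pow_q hF, Pi.single_apply]
  refine ⟨Sum.elim (fun i => (b i : Fin n → F)) (fun j => (f j : Fin n → F)), ?_, ?_, ?_⟩
  · rintro (i | i) (j | j)
    · simp [h.tiA _ (b i).2 _ (b j).2]
    · simp only [Sum.elim_inl, Sum.elim_inr, Sum.swap_inr, Sum.inl.injEq]
      exact hef i j
    · simp only [Sum.elim_inl, Sum.elim_inr, Sum.swap_inl, Sum.inr.injEq]
      rw [← hermForm_pow_q hF, hef j i]
      by_cases hij : i = j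
      · subst hij
        simp
      · simp [hij, Ne.symm hij, zero_pow_q hF]
    · simp [h.tiB _ (f i).2 _ (f j).2]
  · intro i
    exact (b i).2
  · intro i
    exact (f i).2

/-! ### Matrices attached to a frame -/

/-- Columns of the frame. -/
def matP (t : Fin m ⊕ Fin m → Fin n → F) : Matrix (Fin n) (Fin m ⊕ Fin m) F :=
  Matrix.of fun k s => t s k

/-- The inverse of `matP`, through the form. -/
def matQ (q : ℕ) (t : Fin m ⊕ Fin m → Fin n → F) : Matrix (Fin m ⊕ Fin m) (Fin n) F :=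
  Matrix.of fun s k => (t s.swap k) ^ q

theorem matP_mulVec (t : Fin m ⊕ Fin m → Fin n → F) (a : Fin m ⊕ Fin m → F) :
    matP t *ᵥ a = ∑ s, a s • t s := by
  funext k
  simp [matP, Matrix.mulVec, dotProduct, Finset.sum_apply, mul_comm]

theorem matQ_mulVec (t : Fin m ⊕ Fin m → Fin n → F) (v : Fin n → F) (s : Fin m ⊕ Fin m) :
    (matQ q t *ᵥ v) s = ⟪v, t s.swap⟫ := by
  simp [matQ, Matrix.mulVec, dotProduct, hermForm_apply, mul_comm]

/-- The model form. -/
def formJ (q : ℕ) (a b : Fin m ⊕ Fin m → F) : F := ∑ s, a s * (b s.swap) ^ q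

section Frame

variable (hF : Fintype.card F = q ^ 2) {t : Fin m ⊕ Fin m → Fin n → F}
  (ht : ∀ s s', hermForm n F q (t s) (t s') = if s = s'.swap then 1 else 0)

include ht in
theorem matQ_mul_matP : matQ q t * matP t = 1 := by
  ext s s'
  have := ht s' s.swap
  simp only [Matrix.mul_apply, matQ, matP, Matrix.of_apply, Matrix.one_apply]
  rw [hermForm_apply] at this
  have h2 : (s' = s.swap.swap) = (s = s') := by
    rw [Sum.swap_swap]; exact propext eq_comm
  simp only [h2] at this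
  rw [← this]
  exact Finset.sum_congr rfl fun k _ => mul_comm _ _

include ht in
theorem matP_mul_matQ (hm : 2 * m = n) : matP t * matQ q t = 1 := by
  have hc : Fintype.card (Fin m ⊕ Fin m) = Fintype.card (Fin n) := by
    simp
    omega
  exact (Matrix.mul_eq_one_comm_of_equiv (Fintype.equivOfCardEq hc)).1 (matQ_mul_matP ht)

include hF ht in
theorem herm_matP (a b : Fin m ⊕ Fin m → F) :
    ⟪matP t *ᵥ a, matP t *ᵥ b⟫ = formJ q a b := by
  classical
  rw [matP_mulVec, matP_mulVec, hermForm_sum_left, formJ]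
  refine Finset.sum_congr rfl fun s _ => ?_
  rw [hermForm_sum_right hF, Finset.sum_eq_single s.swap]
  · rw [ht s s.swap, Sum.swap_swap, if_pos rfl, mul_one]
  · intro s' _ hs'
    rw [ht s s', if_neg, mul_zero]
    intro h
    apply hs'
    rw [h, Sum.swap_swap]
  · intro h
    exact absurd (Finset.mem_univ _) h

/-- A matrix on the model that is an isometry for `formJ`. -/
def IsoJ (q : ℕ) (M : Matrix (Fin m ⊕ Fin m) (Fin m ⊕ Fin m) F) : Prop :=
  ∀ a b, formJ q (M *ᵥ a) (M *ᵥ b) = formJ q a b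

include hF ht in
theorem preserves_conj (hm : 2 * m = n) {t' : Fin m ⊕ Fin m → Fin n → F}
    (ht' : ∀ s s', hermForm n F q (t' s) (t' s') = if s = s'.swap then 1 else 0)
    {M : Matrix (Fin m ⊕ Fin m) (Fin m ⊕ Fin m) F} (hM : IsoJ q M) :
    Preserves q (matP t' * M * matQ q t) := by
  intro u v
  have hu : ∀ w : Fin n → F, matP t *ᵥ (matQ q t *ᵥ w) = w := by
    intro w
    rw [Matrix.mulVec_mulVec, matP_mul_matQ ht hm, Matrix.one_mulVec]
  rw [← Matrix.mulVec_mulVec, ← Matrix.mulVec_mulVec, ← Matrix.mulVec_mulVec,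
    ← Matrix.mulVec_mulVec, herm_matP hF ht', hM, ← herm_matP hF ht, hu, hu]

end Frame

/-! ### The general linear group on the model -/

section Iota

variable (hF : Fintype.card F = q ^ 2)

/-- The dual block. -/
noncomputable def dualB (C : GL (Fin m) F) : Matrix (Fin m) (Fin m) F :=
  (((C⁻¹ : GL (Fin m) F) : Matrix (Fin m) (Fin m) F)ᵀ).map (sigma hF)

/-- The block matrix attached to `C`. -/
noncomputable def iotaMat (C : GL (Fin m) F) : Matrix (Fin m ⊕ Fin m) (Fin m ⊕ Fin m) F :=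
  Matrix.fromBlocks (C : Matrix (Fin m) (Fin m) F) 0 0 (dualB hF C)

theorem dualB_one : dualB hF (1 : GL (Fin m) F) = 1 := by
  simp only [dualB, inv_one, Units.val_one, Matrix.transpose_one]
  exact Matrix.map_one _ (map_zero _) (map_one _)

theorem dualB_mul (C C' : GL (Fin m) F) : dualB hF (C * C') = dualB hF C * dualB hF C' := by
  simp only [dualB, mul_inv_rev, Units.val_mul, Matrix.transpose_mul]
  exact Matrix.map_mul

theorem iotaMat_one : iotaMat hF (1 : GL (Fin m) F) = 1 := by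
  simp [iotaMat, dualB_one]

theorem iotaMat_mul (C C' : GL (Fin m) F) : iotaMat hF (C * C') = iotaMat hF C * iotaMat hF C' := by
  simp [iotaMat, Matrix.fromBlocks_multiply, dualB_mul]

theorem sum_key {X Y : Matrix (Fin m) (Fin m) F} (hXY : Xᵀ * Y.map (sigma hF) = 1) (a c : Fin m → F) :
    ∑ i, (X *ᵥ a) i * ((Y *ᵥ c) i) ^ q = ∑ i, a i * (c i) ^ q := by
  have h1 : ∀ i, ((Y *ᵥ c) i) ^ q = (Y.map (sigma hF) *ᵥ ((sigma hF) ∘ c)) i := by
    intro i
    rw [← RingHom.map_mulVec]
    rfl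
  simp only [h1]
  have h2 : ∀ (u v : Fin m → F), ∑ i, u i * v i = u ⬝ᵥ v := fun u v => rfl
  rw [h2, ← Matrix.vecMul_transpose X a, ← Matrix.dotProduct_mulVec, Matrix.mulVec_mulVec, hXY,
    Matrix.one_mulVec]
  exact Finset.sum_congr rfl fun i _ => rfl

theorem formJ_split (a b : Fin m ⊕ Fin m → F) :
    formJ q a b = ∑ i, a (Sum.inl i) * (b (Sum.inr i)) ^ q + ∑ i, a (Sum.inr i) * (b (Sum.inl i)) ^ q := by
  simp [formJ, Fintype.sum_sum_type]

theorem iotaMat_mulVec_inl (C : GL (Fin m) F) (a : Fin m ⊕ Fin m → F) (i : Fin m) :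
    (iotaMat hF C *ᵥ a) (Sum.inl i) = ((C : Matrix (Fin m) (Fin m) F) *ᵥ (a ∘ Sum.inl)) i := by
  simp [iotaMat, Matrix.fromBlocks_mulVec]

theorem iotaMat_mulVec_inr (C : GL (Fin m) F) (a : Fin m ⊕ Fin m → F) (i : Fin m) :
    (iotaMat hF C *ᵥ a) (Sum.inr i) = (dualB hF C *ᵥ (a ∘ Sum.inr)) i := by
  simp [iotaMat, Matrix.fromBlocks_mulVec]

theorem sigma_map_map (X : Matrix (Fin m) (Fin m) F) : (X.map (sigma hF)).map (sigma hF) = X := by
  ext i j
  simp [pow_q_pow_q hF]

theorem iotaMat_isoJ (C : GL (Fin m) F) : IsoJ q (iotaMat hF C) := by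
  intro a b
  rw [formJ_split, formJ_split]
  simp only [iotaMat_mulVec_inl, iotaMat_mulVec_inr]
  have hC : ((C⁻¹ : GL (Fin m) F) : Matrix (Fin m) (Fin m) F) * (C : Matrix (Fin m) (Fin m) F) = 1 := by
    rw [← Units.val_mul, inv_mul_cancel, Units.val_one]
  congr 1
  · refine sum_key hF (X := (C : Matrix (Fin m) (Fin m) F)) (Y := dualB hF C) ?_ (a ∘ Sum.inl) (b ∘ Sum.inr)
    rw [dualB, sigma_map_map, ← Matrix.transpose_mul, hC, Matrix.transpose_one]
  · refine sum_key hF (X := dualB hF C) (Y := (C : Matrix (Fin m) (Fin m) F)) ?_ (a ∘ Sum.inr) (b ∘ Sum.inl)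
    have h1 : (dualB hF C)ᵀ = ((C⁻¹ : GL (Fin m) F) : Matrix (Fin m) (Fin m) F).map (sigma hF) := by
      ext i j
      simp [dualB]
    rw [h1, ← Matrix.map_mul, hC]
    exact Matrix.map_one _ (map_zero _) (map_one _)

theorem det_iotaMat (C : GL (Fin m) F) : (iotaMat hF C).det =
    (C : Matrix (Fin m) (Fin m) F).det * (((C⁻¹ : GL (Fin m) F) : Matrix (Fin m) (Fin m) F).det) ^ q := by
  rw [iotaMat, Matrix.det_fromBlocks_zero₂₁, dualB]
  congr 1
  have h2 : ((((C⁻¹ : GL (Fin m) F) : Matrix (Fin m) (Fin m) F)ᵀ).map (sigma hF)).det =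
      sigma hF (((C⁻¹ : GL (Fin m) F) : Matrix (Fin m) (Fin m) F)ᵀ).det :=
    ((sigma hF).map_det _).symm
  rw [h2, sigma_apply, Matrix.det_transpose]

end Iota

/-! ### Conjugating pairs -/

section Conj

variable (hF : Fintype.card F = q ^ 2)

theorem map_eq_of_le (g : GL (Fin n) F) {W W' : Submodule F (Fin n → F)}
    (hle : ∀ v ∈ W, (g : Matrix (Fin n) (Fin n) F) *ᵥ v ∈ W') (hfin : finrank F W = finrank F W') :
    W.map (Matrix.toLin' (g : Matrix (Fin n) (Fin n) F)) = W' := by
  have hinj : Function.Injective (Matrix.toLin' (g : Matrix (Fin n) (Fin n) F)) := by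
    intro u v huv
    have h1 : ((g⁻¹ : GL (Fin n) F) : Matrix (Fin n) (Fin n) F) *ᵥ ((g : Matrix (Fin n) (Fin n) F) *ᵥ u)
        = ((g⁻¹ : GL (Fin n) F) : Matrix (Fin n) (Fin n) F) *ᵥ ((g : Matrix (Fin n) (Fin n) F) *ᵥ v) :=
      congrArg _ huv
    rw [Matrix.mulVec_mulVec, Matrix.mulVec_mulVec, ← Units.val_mul, inv_mul_cancel, Units.val_one,
      Matrix.one_mulVec, Matrix.one_mulVec] at h1
    exact h1
  apply Submodule.eq_of_le_of_finrank_eq
  · rintro _ ⟨v, hv, rfl⟩
    exact hle v hv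
  · rw [← (Submodule.equivMapOfInjective _ hinj W).finrank_eq, hfin]

variable {t : Fin m ⊕ Fin m → Fin n → F}
  (ht : ∀ s s', hermForm n F q (t s) (t s') = if s = s'.swap then 1 else 0)

include ht in
theorem matQ_of_mem_A {A B : Submodule F (Fin n → F)} (h : IsTIPair q A B)
    (htA : ∀ i, t (Sum.inl i) ∈ A) {v : Fin n → F} (hv : v ∈ A) (i : Fin m) :
    (matQ q t *ᵥ v) (Sum.inr i) = 0 := by
  rw [matQ_mulVec]
  exact h.tiA _ hv _ (htA i)

include ht in
theorem matQ_of_mem_B {A B : Submodule F (Fin n → F)} (h : IsTIPair q A B)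
    (htB : ∀ i, t (Sum.inr i) ∈ B) {v : Fin n → F} (hv : v ∈ B) (i : Fin m) :
    (matQ q t *ᵥ v) (Sum.inl i) = 0 := by
  rw [matQ_mulVec]
  exact h.tiB _ hv _ (htB i)

theorem matP_mem_A {A : Submodule F (Fin n → F)} (htA : ∀ i, t (Sum.inl i) ∈ A)
    {a : Fin m ⊕ Fin m → F} (ha : ∀ i, a (Sum.inr i) = 0) : matP t *ᵥ a ∈ A := by
  rw [matP_mulVec]
  refine Submodule.sum_mem _ ?_
  rintro (i | i) _
  · exact A.smul_mem _ (htA i)
  · rw [ha i, zero_smul]
    exact A.zero_mem

theorem matP_mem_B {B : Submodule F (Fin n → F)} (htB : ∀ i, t (Sum.inr i) ∈ B)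
    {a : Fin m ⊕ Fin m → F} (ha : ∀ i, a (Sum.inl i) = 0) : matP t *ᵥ a ∈ B := by
  rw [matP_mulVec]
  refine Submodule.sum_mem _ ?_
  rintro (i | i) _
  · rw [ha i, zero_smul]
    exact B.zero_mem
  · exact B.smul_mem _ (htB i)

theorem iota_inr_zero (C : GL (Fin m) F) {a : Fin m ⊕ Fin m → F} (ha : ∀ i, a (Sum.inr i) = 0)
    (i : Fin m) : (iotaMat hF C *ᵥ a) (Sum.inr i) = 0 := by
  rw [iotaMat_mulVec_inr]
  have : a ∘ Sum.inr = 0 := funext ha
  rw [this, Matrix.mulVec_zero]
  rfl

theorem iota_inl_zero (C : GL (Fin m) F) {a : Fin m ⊕ Fin m → F} (ha : ∀ i, a (Sum.inl i) = 0)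
    (i : Fin m) : (iotaMat hF C *ᵥ a) (Sum.inl i) = 0 := by
  rw [iotaMat_mulVec_inl]
  have : a ∘ Sum.inl = 0 := funext ha
  rw [this, Matrix.mulVec_zero]
  rfl

include hF in
/-- Hilbert 90 in the form used below. -/
theorem exists_hilbert {c : F} (hc : c ^ (q + 1) = 1) : ∃ l : F, l ≠ 0 ∧ l * (l⁻¹) ^ q * c = 1 := by
  obtain ⟨s, hs⟩ : ∃ s : F, s - sigma hF s ≠ 0 := by
    by_contra hcon
    push Not at hcon
    apply sigma_ne_id hF
    ext x
    have := hcon x
    rw [sub_eq_zero] at this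
    simpa using this.symm
  obtain ⟨d, hd, hcd⟩ := Cfsg.Agent.Lib.Classical.Herm.Hilbert90.hilbert90 (sigma hF) (sigma_sigma hF)
    (isUnit_iff_ne_zero.2 hs) (c := c) (by rw [sigma_apply, mul_comm, ← pow_succ']; exact hc)
  have hd0 : d ≠ 0 := hd.ne_zero
  refine ⟨d⁻¹, inv_ne_zero hd0, ?_⟩
  rw [inv_inv, sigma_apply] at *
  field_simp
  rw [mul_comm]
  exact hcd

theorem exists_det (hm0 : 0 < m) {l : F} (hl : l ≠ 0) :
    ∃ C : GL (Fin m) F, (C : Matrix (Fin m) (Fin m) F).det = l := by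
  classical
  let i₀ : Fin m := ⟨0, hm0⟩
  let M : Matrix (Fin m) (Fin m) F := Matrix.diagonal (Function.update (fun _ => 1) i₀ l)
  have hM : M.det = l := by
    rw [Matrix.det_diagonal, Finset.prod_update_of_mem (Finset.mem_univ _)]
    simp
  refine ⟨Matrix.GeneralLinearGroup.mkOfDetNeZero M (by rw [hM]; exact hl), ?_⟩
  exact hM

theorem inv_det_mul (C : GL (Fin m) F) : (C : Matrix (Fin m) (Fin m) F).det *
    ((C⁻¹ : GL (Fin m) F) : Matrix (Fin m) (Fin m) F).det = 1 := by
  rw [← Matrix.det_mul, ← Units.val_mul, mul_inv_cancel, Units.val_one, Matrix.det_one]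

theorem mem_specialLinear_iff (g : GL (Fin n) F) :
    g ∈ Cfsg.Geo.specialLinear (Fin n) F ↔ (g : Matrix (Fin n) (Fin n) F).det = 1 := by
  rw [Cfsg.Geo.specialLinear, MonoidHom.mem_ker]
  constructor
  · intro h
    have := congrArg Units.val h
    simpa using this
  · intro h
    apply Units.ext
    simpa using h

include hF in
/-- Two pairs are conjugate under `SU`. -/
theorem IsTIPair.exists_conj (hm : 2 * m = n) (hm0 : 0 < m) {A B A' B' : Submodule F (Fin n → F)}
    (h : IsTIPair q A B) (h' : IsTIPair q A' B') :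
    ∃ g : GL (Fin n) F, g ∈ Cfsg.GU n F q ⊓ Cfsg.Geo.specialLinear (Fin n) F ∧
      A.map (Matrix.toLin' (g : Matrix (Fin n) (Fin n) F)) = A' ∧
      B.map (Matrix.toLin' (g : Matrix (Fin n) (Fin n) F)) = B' := by
  classical
  obtain ⟨t, ht, htA, htB⟩ := h.exists_frame hF hm
  obtain ⟨t', ht', htA', htB'⟩ := h'.exists_frame hF hm
  have hPQ := matP_mul_matQ ht hm
  have hQP := matQ_mul_matP ht
  -- the isometry between the frames
  have hpres0 : Preserves q (matP t' * (1 : Matrix (Fin m ⊕ Fin m) (Fin m ⊕ Fin m) F) * matQ q t) :=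
    preserves_conj hF ht hm ht' (M := 1) (fun a b => by simp only [Matrix.one_mulVec])
  have hdet0 := det_pow_succ hF _ hpres0
  obtain ⟨l, hl, hlc⟩ := exists_hilbert hF hdet0
  obtain ⟨C, hC⟩ := exists_det hm0 hl
  have hpres : Preserves q (matP t' * iotaMat hF C * matQ q t) :=
    preserves_conj hF ht hm ht' (iotaMat_isoJ hF C)
  let g : GL (Fin n) F := glOfPreserves hF _ hpres
  have hg : (g : Matrix (Fin n) (Fin n) F) = matP t' * iotaMat hF C * matQ q t := rfl
  have hCinv : ((C⁻¹ : GL (Fin m) F) : Matrix (Fin m) (Fin m) F).det = l⁻¹ := by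
    have := inv_det_mul C
    rw [hC] at this
    exact eq_inv_of_mul_eq_one_right this
  have hdet : (g : Matrix (Fin n) (Fin n) F).det = 1 := by
    have h1 : matP t' * iotaMat hF C * matQ q t =
        (matP t' * (1 : Matrix (Fin m ⊕ Fin m) (Fin m ⊕ Fin m) F) * matQ q t) * (matP t * iotaMat hF C * matQ q t) := by
      calc matP t' * iotaMat hF C * matQ q t
          = matP t' * ((matQ q t * matP t) * (iotaMat hF C * matQ q t)) := by
            rw [hQP, Matrix.one_mul, Matrix.mul_assoc]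
        _ = _ := by simp only [Matrix.mul_assoc, Matrix.mul_one, Matrix.one_mul]
    rw [hg, h1, Matrix.det_mul, Matrix.det_conj_of_mul_eq_one hPQ hQP, det_iotaMat, hC, hCinv]
    rw [mul_comm]
    exact hlc
  have hA : finrank F A = m := by have := h.two_mul_finrank hF; omega
  have hB : finrank F B = m := by rw [h.finrank_eq hF]; exact hA
  have hA' : finrank F A' = m := by have := h'.two_mul_finrank hF; omega
  have hB' : finrank F B' = m := by rw [h'.finrank_eq hF]; exact hA'
  refine ⟨g, Subgroup.mem_inf.2 ⟨glOfPreserves_mem hF _ hpres, (mem_specialLinear_iff g).2 hdet⟩, ?_, ?_⟩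
  · apply map_eq_of_le g ?_ (by rw [hA, hA'])
    intro v hv
    rw [hg, ← Matrix.mulVec_mulVec, ← Matrix.mulVec_mulVec]
    exact matP_mem_A htA' (iota_inr_zero hF C (matQ_of_mem_A ht h htA hv))
  · apply map_eq_of_le g ?_ (by rw [hB, hB'])
    intro v hv
    rw [hg, ← Matrix.mulVec_mulVec, ← Matrix.mulVec_mulVec]
    exact matP_mem_B htB' (iota_inl_zero hF C (matQ_of_mem_B ht h htB hv))

end Conj

end Cfsg.Agent.Lib.Classical.PairU

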