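import Mathlib
import Cfsg.Agent.Lib.Classical.PairU.Frame

/-!
# The index of the stabilizer of a pair in the unitary group
-/

set_option autoImplicit false
set_option linter.unusedSectionVars false
set_option linter.unusedSimpArgs false
set_option linter.unusedVariables false

open scoped Matrix MatrixGroups
open Module
open Cfsg Cfsg.Agent.Lib.Classical.Herm.Basic Cfsg.Agent.Lib.Classical.Herm.Form
open Cfsg.Agent.Lib.Classical.Herm.GU Cfsg.Agent.Lib.Classical.Herm.SU

namespace Cfsg.Agent.Lib.Classical.PairU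

variable {F : Type*} [Field F] [Fintype F] {q n m : ℕ}

/-! ### Arithmetic -/

theorem prod_range_two (m : ℕ) :
    ∏ i ∈ Finset.range (2 * m), (if Even i then q ^ (i + 1) + 1 else q ^ (i + 1) - 1) =
      (∏ j ∈ Finset.range m, (q ^ (2 * j + 1) + 1)) * ∏ j ∈ Finset.range m, (q ^ (2 * (j + 1)) - 1) := by
  induction m with
  | zero => simp
  | succ k ih =>
    rw [show 2 * (k + 1) = 2 * k + 1 + 1 by ring, Finset.prod_range_succ, Finset.prod_range_succ, ih,
      Finset.prod_range_succ, Finset.prod_range_succ]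
    have h1 : Even (2 * k) := even_two_mul k
    have h2 : ¬ Even (2 * k + 1) := by
      rw [Nat.not_even_iff_odd]
      exact odd_two_mul_add_one k
    rw [if_pos h1, if_neg h2, show 2 * k + 1 + 1 = 2 * (k + 1) by ring]
    ring

theorem prod_GL (hq : 1 ≤ q) (m : ℕ) :
    ∏ i ∈ Finset.range m, ((q ^ 2) ^ m - (q ^ 2) ^ i) =
      q ^ (m * (m - 1)) * ∏ j ∈ Finset.range m, (q ^ (2 * (j + 1)) - 1) := by
  have h1 : ∀ i ∈ Finset.range m, (q ^ 2) ^ m - (q ^ 2) ^ i = (q ^ 2) ^ i * ((q ^ 2) ^ (m - 1 - i + 1) - 1) := by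
    intro i hi
    have hi' : i < m := Finset.mem_range.1 hi
    rw [Nat.mul_sub, mul_one, ← pow_add]
    congr 2
    omega
  rw [Finset.prod_congr rfl h1, Finset.prod_mul_distrib, Finset.prod_pow_eq_pow_sum]
  have h2 : ∑ i ∈ Finset.range m, i = m * (m - 1) / 2 := Finset.sum_range_id m
  have h3 : 2 * ∑ i ∈ Finset.range m, i = m * (m - 1) := by
    have := Finset.sum_range_id_mul_two m
    omega
  rw [← pow_mul, h3]
  congr 1
  have h4 := Finset.prod_range_reflect (fun j => (q ^ 2) ^ (j + 1) - 1) m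
  beta_reduce at h4
  rw [h4]
  refine Finset.prod_congr rfl fun j _ => ?_
  rw [← pow_mul]

theorem card_GU_eq_GL (hF : Fintype.card F = q ^ 2) (m : ℕ) :
    Nat.card (GU (2 * m) F q) = Nat.card (GL (Fin m) F) *
      (q ^ (m * m) * ∏ j ∈ Finset.range m, (q ^ (2 * j + 1) + 1)) := by
  have hq : 1 ≤ q := by have := two_le_q hF; omega
  rw [card_GU hF, prod_range_two, Matrix.card_GL_field, hF, Fin.prod_univ_eq_prod_range
    (fun i => (q ^ 2) ^ m - (q ^ 2) ^ i) m, prod_GL hq]
  have he : 2 * m * (2 * m - 1) / 2 = m * (m - 1) + m * m := by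
    rcases m with _ | k
    · simp
    · have h1 : 2 * (k + 1) - 1 = 2 * k + 1 := by omega
      have h2 : k + 1 - 1 = k := by omega
      rw [h1, h2, show 2 * (k + 1) * (2 * k + 1) = 2 * ((k + 1) * (2 * k + 1)) by ring,
        Nat.mul_div_cancel_left _ (by norm_num)]
      ring
  rw [he, pow_add]
  ring

/-! ### The subgroup `T` -/

/-- `GU ⊓ SL` and `SU`. -/
noncomputable def equivSU (n : ℕ) (F : Type*) [Field F] [Fintype F] (q : ℕ) :
    SU n F q ≃ ↥(Cfsg.GU n F q ⊓ Cfsg.Geo.specialLinear (Fin n) F) where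
  toFun A := ⟨Matrix.SpecialLinearGroup.toGL A.1, Subgroup.mem_inf.2 ⟨A.2, (mem_specialLinear_iff _).2 A.1.2⟩⟩
  invFun g := ⟨⟨(g.1 : Matrix (Fin n) (Fin n) F), (mem_specialLinear_iff _).1 (Subgroup.mem_inf.1 g.2).2⟩,
    (Subgroup.mem_inf.1 g.2).1⟩
  left_inv A := by
    apply Subtype.ext
    apply Subtype.ext
    rfl
  right_inv g := by
    apply Subtype.ext
    apply Units.ext
    rfl

theorem card_T (hF : Fintype.card F = q ^ 2) (hn : 1 ≤ n) :
    Nat.card (GU n F q) = (q + 1) * Nat.card ↥(Cfsg.GU n F q ⊓ Cfsg.Geo.specialLinear (Fin n) F) := by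
  rw [card_GU_eq hF hn, Nat.card_congr (equivSU n F q)]

/-! ### The linear group of `A` in the stabilizer -/

section Rho

variable (hF : Fintype.card F = q ^ 2) {t : Fin m ⊕ Fin m → Fin n → F}
  (ht : ∀ s s', hermForm n F q (t s) (t s') = if s = s'.swap then 1 else 0) (hm : 2 * m = n)

/-- The representation on matrices. -/
noncomputable def rhoHom : GL (Fin m) F →* Matrix (Fin n) (Fin n) F where
  toFun C := matP t * iotaMat hF C * matQ q t
  map_one' := by rw [iotaMat_one, Matrix.mul_one, matP_mul_matQ ht hm]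
  map_mul' C C' := by
    rw [iotaMat_mul]
    calc matP t * (iotaMat hF C * iotaMat hF C') * matQ q t
        = matP t * (iotaMat hF C * ((matQ q t * matP t) * iotaMat hF C')) * matQ q t := by
          rw [matQ_mul_matP ht, Matrix.one_mul]
      _ = _ := by simp only [Matrix.mul_assoc]

/-- The representation as a homomorphism into `GL`. -/
noncomputable def rho : GL (Fin m) F →* GL (Fin n) F := (rhoHom hF ht hm).toHomUnits

theorem coe_rho (C : GL (Fin m) F) :
    ((rho hF ht hm C : GL (Fin n) F) : Matrix (Fin n) (Fin n) F) = matP t * iotaMat hF C * matQ q t := rfl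

theorem rho_mem (C : GL (Fin m) F) : rho hF ht hm C ∈ Cfsg.GU n F q :=
  preserves_conj hF ht hm ht (iotaMat_isoJ hF C)

theorem rho_injective : Function.Injective (rho hF ht hm) := by
  rw [injective_iff_map_eq_one]
  intro C hC
  have h1 : matP t * iotaMat hF C * matQ q t = 1 := by
    rw [← coe_rho hF ht hm, hC]
    rfl
  have h2 : iotaMat hF C = 1 := by
    calc iotaMat hF C = (matQ q t * matP t) * iotaMat hF C * (matQ q t * matP t) := by
          rw [matQ_mul_matP ht, Matrix.one_mul, Matrix.mul_one]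
      _ = matQ q t * (matP t * iotaMat hF C * matQ q t) * matP t := by simp only [Matrix.mul_assoc]
      _ = 1 := by rw [h1, Matrix.mul_one, matQ_mul_matP ht]
  apply Units.ext
  ext i j
  have := congrFun (congrFun h2 (Sum.inl i)) (Sum.inl j)
  simpa [iotaMat, Matrix.one_apply] using this

end Rho

theorem dvd_of_relIndex (hF : Fintype.card F = q ^ 2) (hm : 2 * m = n) (hm0 : 0 < m)
    {D : Fin 2 → Submodule F (Fin n → F)} (h : IsTIPair q (D 0) (D 1)) {r : ℕ} (hr : r.Prime)
    (hΩ : r ∣ (Cfsg.Geo.decompositionStabilizer D).relIndex (Cfsg.GU n F q ⊓ Cfsg.Geo.specialLinear (Fin n) F)) :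
    r ∣ q ^ (m * m) * ∏ j ∈ Finset.range m, (q ^ (2 * j + 1) + 1) := by
  classical
  subst hm
  obtain ⟨t, ht, htA, htB⟩ := h.exists_frame hF rfl
  set T := Cfsg.GU (2 * m) F q ⊓ Cfsg.Geo.specialLinear (Fin (2 * m)) F with hT
  let ρ := rho hF ht rfl
  let δ : GL (Fin m) F →* Fˣ := (Matrix.GeneralLinearGroup.det).comp ρ
  let L : Subgroup (GL (Fin (2 * m)) F) := (δ.ker).map ρ
  have hLT : L ≤ T := by
    rintro _ ⟨C, hC, rfl⟩
    refine Subgroup.mem_inf.2 ⟨rho_mem hF ht rfl C, ?_⟩
    rw [Cfsg.Geo.specialLinear, MonoidHom.mem_ker]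
    exact hC
  have hA : finrank F (D 0) = m := by have := h.two_mul_finrank hF; omega
  have hB : finrank F (D 1) = m := by rw [h.finrank_eq hF]; exact hA
  have hLH : L ≤ Cfsg.Geo.decompositionStabilizer D := by
    rintro _ ⟨C, hC, rfl⟩
    refine ⟨1, fun i => ?_⟩
    have hcoe := coe_rho hF ht rfl C
    fin_cases i
    · apply map_eq_of_le _ ?_ rfl
      intro v hv
      rw [hcoe, ← Matrix.mulVec_mulVec, ← Matrix.mulVec_mulVec]
      exact matP_mem_A htA (iota_inr_zero hF C (matQ_of_mem_A ht h htA hv))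
    · apply map_eq_of_le _ ?_ rfl
      intro v hv
      rw [hcoe, ← Matrix.mulVec_mulVec, ← Matrix.mulVec_mulVec]
      exact matP_mem_B htB (iota_inl_zero hF C (matQ_of_mem_B ht h htB hv))
  have h1 : (Cfsg.Geo.decompositionStabilizer D).relIndex T ∣ L.relIndex T :=
    Subgroup.relIndex_dvd_of_le_left T hLH
  have hcardL : Nat.card L = Nat.card δ.ker :=
    (Nat.card_congr (Subgroup.equivMapOfInjective δ.ker ρ (rho_injective hF ht rfl)).toEquiv).symm
  have hcardLT : Nat.card L * L.relIndex T = Nat.card T := by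
    have h2 := Subgroup.card_mul_index (L.subgroupOf T)
    rw [Nat.card_congr (Subgroup.subgroupOfEquivOfLe hLT).toEquiv] at h2
    exact h2
  have hker : Nat.card δ.ker * Nat.card δ.range = Nat.card (GL (Fin m) F) := by
    have h2 := Subgroup.card_mul_index δ.ker
    rw [Subgroup.index_ker] at h2
    exact h2
  have hrange : Nat.card δ.range ∣ q + 1 := by
    rw [← card_normOne hF]
    apply Subgroup.card_dvd_of_le
    rintro _ ⟨C, rfl⟩
    rw [mem_normOne]
    apply Units.ext
    have h3 := det_pow_succ hF _ (rho_mem hF ht rfl C)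
    simpa [δ] using h3
  obtain ⟨e, he⟩ := hrange
  have hT' := card_T (n := 2 * m) hF (by omega)
  rw [card_GU_eq_GL hF, ← hker, ← hcardLT, hcardL, he] at hT'
  set X := q ^ (m * m) * ∏ j ∈ Finset.range m, (q ^ (2 * j + 1) + 1) with hX
  have hpos1 : 0 < Nat.card δ.ker := Nat.card_pos
  have hpos2 : 0 < Nat.card δ.range := Nat.card_pos
  have h3 : X = e * L.relIndex T := by
    apply Nat.eq_of_mul_eq_mul_left (Nat.mul_pos hpos1 hpos2)
    rw [hT']
    ring
  exact (hΩ.trans h1).trans ⟨e, by rw [h3, mul_comm]⟩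

end Cfsg.Agent.Lib.Classical.PairU
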