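import Mathlib
import Cfsg.Agent.Lib.Classical.PairU.Count

/-!
# Elements of `SU_n(q)` with no invariant pair of totally singular subspaces
-/

set_option autoImplicit false
set_option linter.unusedSectionVars false
set_option linter.unusedSimpArgs false
set_option linter.unusedVariables false

open scoped Matrix MatrixGroups
open Module
open Cfsg Cfsg.Agent.Lib.Classical.Herm.Basic Cfsg.Agent.Lib.Classical.Herm.Form
open Cfsg.Agent.Lib.Classical.Herm.GU Cfsg.Agent.Lib.Classical.Herm.SU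
open Cfsg.Agent.Lib.Classical.Herm.Tv

namespace Cfsg.Agent.Lib.Classical.PairU

variable {F : Type*} [Field F] [Fintype F] {q n m : ℕ}

local notation "⟪" x ", " y "⟫" => hermForm _ _ q x y

/-- If `x` acts as a scalar on the perp of a vector, it does not interchange two t.s. spaces of dimension `≥ 2`. -/
theorem no_swap {A B : Submodule F (Fin n → F)} (h : IsTIPair q A B) (hA : 2 ≤ finrank F A)
    {x : Matrix (Fin n) (Fin n) F} (hxA : ∀ v ∈ A, x *ᵥ v ∈ B) {l : F} (hl : l ≠ 0) {w : Fin n → F}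
    (hw : ∀ u, ⟪u, w⟫ = 0 → x *ᵥ u = l • u) : False := by
  classical
  -- the functional `u ↦ ⟪u, w⟫` on `A`
  let φ : A →ₗ[F] F :=
    { toFun := fun u => ⟪(u : Fin n → F), w⟫
      map_add' := fun a b => hermForm_add_left _ _ _ _
      map_smul' := fun c a => hermForm_smul_left _ _ _ _ }
  have hker : LinearMap.ker φ ≠ ⊥ := by
    apply LinearMap.ker_ne_bot_of_finrank_lt
    simp only [finrank_self]
    omega
  obtain ⟨u, hu, hu0⟩ := Submodule.exists_mem_ne_zero_of_ne_bot hker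
  have h1 : ⟪(u : Fin n → F), w⟫ = 0 := hu
  have h2 := hw _ h1
  have h3 := hxA _ u.2
  rw [h2] at h3
  have h4 : (u : Fin n → F) ∈ B := by
    have := B.smul_mem l⁻¹ h3
    rwa [smul_smul, inv_mul_cancel₀ hl, one_smul] at this
  have h5 := Submodule.disjoint_def.1 h.compl.disjoint _ u.2 h4
  exact hu0 (Subtype.ext h5)

/-- A vector whose eigenline is isolated is an obstruction for fixing a pair. -/
theorem no_fix_of_line {A B : Submodule F (Fin n → F)} (h : IsTIPair q A B)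
    {x : Matrix (Fin n) (Fin n) F} (hxA : ∀ v ∈ A, x *ᵥ v ∈ A) (hxB : ∀ v ∈ B, x *ᵥ v ∈ B)
    {l : F} {e : Fin n → F} (hee : ⟪e, e⟫ ≠ 0) (hxe : x *ᵥ e = l • e)
    (hker : ∀ w, x *ᵥ w = l • w → ∃ c : F, w = c • e) : False := by
  have hw : e ∈ A ⊔ B := by rw [h.compl.sup_eq_top]; trivial
  obtain ⟨a, ha, b, hb, hab⟩ := Submodule.mem_sup.1 hw
  have h1 : x *ᵥ a - l • a + (x *ᵥ b - l • b) = 0 := by
    have : x *ᵥ (a + b) = l • (a + b) := by rw [hab, hxe]
    rw [Matrix.mulVec_add, smul_add] at this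
    rw [sub_add_sub_comm, this, sub_self]
  have h2 : x *ᵥ a - l • a ∈ A := A.sub_mem (hxA a ha) (A.smul_mem _ ha)
  have h3 : x *ᵥ b - l • b ∈ B := B.sub_mem (hxB b hb) (B.smul_mem _ hb)
  have h4 : x *ᵥ a - l • a = 0 := by
    apply Submodule.disjoint_def.1 h.compl.disjoint _ h2
    rw [eq_neg_of_add_eq_zero_left h1]
    exact B.neg_mem h3
  have h5 : x *ᵥ b - l • b = 0 := by
    rw [h4, zero_add] at h1
    exact h1
  obtain ⟨c₁, hc₁⟩ := hker a (sub_eq_zero.1 h4)
  obtain ⟨c₂, hc₂⟩ := hker b (sub_eq_zero.1 h5)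
  have hne : ¬ (c₁ = 0 ∧ c₂ = 0) := by
    rintro ⟨rfl, rfl⟩
    rw [hc₁, hc₂, zero_smul, add_zero] at hab
    rw [← hab] at hee
    exact hee (hermForm_zero_left _ _)
  have hmem : e ∈ A ∨ e ∈ B := by
    by_cases hc : c₁ = 0
    · have hc2 : c₂ ≠ 0 := fun h0 => hne ⟨hc, h0⟩
      right
      have := B.smul_mem c₂⁻¹ hb
      rwa [hc₂, smul_smul, inv_mul_cancel₀ hc2, one_smul] at this
    · left
      have := A.smul_mem c₁⁻¹ ha
      rwa [hc₁, smul_smul, inv_mul_cancel₀ hc, one_smul] at this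
  rcases hmem with he | he
  · exact hee (h.tiA _ he _ he)
  · exact hee (h.tiB _ he _ he)

/-- A transvection fixes no pair. -/
theorem no_fix_tv (hF : Fintype.card F = q ^ 2) {A B : Submodule F (Fin n → F)} (h : IsTIPair q A B)
    {x : Matrix (Fin n) (Fin n) F} (hxA : ∀ v ∈ A, x *ᵥ v ∈ A) (hxB : ∀ v ∈ B, x *ᵥ v ∈ B)
    {c : F} (hc : c ≠ 0) {v : Fin n → F} (hv : v ≠ 0)
    (hx : ∀ u, x *ᵥ u = u + (c * ⟪u, v⟫) • v) : False := by
  have key : ∀ {W : Submodule F (Fin n → F)}, (∀ u ∈ W, ∀ v ∈ W, ⟪u, v⟫ = 0) → (∀ v ∈ W, x *ᵥ v ∈ W) →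
      ∀ u ∈ W, ⟪u, v⟫ = 0 := by
    intro W hti hxW u hu
    by_contra hne
    have h1 : x *ᵥ u - u ∈ W := W.sub_mem (hxW u hu) hu
    rw [hx, add_sub_cancel_left] at h1
    have h2 : v ∈ W := by
      have := W.smul_mem (c * ⟪u, v⟫)⁻¹ h1
      rwa [smul_smul, inv_mul_cancel₀ (mul_ne_zero hc hne), one_smul] at this
    exact hne (hti _ hu _ h2)
  apply hv
  apply hermForm_nondegenerate_right hF n v
  intro w
  have hw : w ∈ A ⊔ B := by rw [h.compl.sup_eq_top]; trivial
  obtain ⟨a, ha, b, hb, rfl⟩ := Submodule.mem_sup.1 hw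
  rw [hermForm_add_left, key h.tiA hxA a ha, key h.tiB hxB b hb, add_zero]

/-- An isotropic vector. -/
theorem exists_isotropic (hF : Fintype.card F = q ^ 2) (hn : 2 ≤ n) :
    ∃ v : Fin n → F, v ≠ 0 ∧ ⟪v, v⟫ = 0 := by
  classical
  obtain ⟨c, hc⟩ := exists_norm_eq hF (-1 : F) (by simp) (by rw [pow_q_neg hF, one_pow])
  let i₀ : Fin n := ⟨0, by omega⟩
  let i₁ : Fin n := ⟨1, by omega⟩
  have h01 : i₀ ≠ i₁ := by simp [i₀, i₁, Fin.ext_iff]
  refine ⟨Pi.single i₀ 1 + c • Pi.single i₁ 1, ?_, ?_⟩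
  · intro h0
    have := congrFun h0 i₀
    simp [i₀, i₁, Pi.single_apply, h01, Fin.ext_iff] at this
  · simp only [hermForm_add_left, hermForm_add_right hF, hermForm_smul_left, hermForm_smul_right,
      hermForm_single_single hF]
    simp only [h01, h01.symm, if_false, if_true]
    rw [pow_succ'] at hc
    linear_combination hc

/-- Transvections in `SU`. -/
theorem exists_tv (hF : Fintype.card F = q ^ 2) (hn : 2 ≤ n) (p : ℕ) [Fact p.Prime] [CharP F p] :
    ∃ (x : GL (Fin n) F) (c : F) (v : Fin n → F), x ∈ Cfsg.GU n F q ⊓ Cfsg.Geo.specialLinear (Fin n) F ∧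
      c ≠ 0 ∧ v ≠ 0 ∧ (∀ u, (x : Matrix (Fin n) (Fin n) F) *ᵥ u = u + (c * ⟪u, v⟫) • v) ∧
      x ^ p = 1 ∧ ∀ z : F, (x : Matrix (Fin n) (Fin n) F) ≠ z • (1 : Matrix (Fin n) (Fin n) F) := by
  classical
  obtain ⟨v, hv0, hv⟩ := exists_isotropic hF hn
  obtain ⟨c, hc0, hc⟩ := Cfsg.Agent.Lib.Classical.Herm.Subfield.exists_trace_zero hF
  have hc' : c + c ^ q = 0 := by rw [hc]; ring
  let M := unitaryTransvection n q v c
  have hpres := preserves_unitaryTransvection hF v c hv hc'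
  let x : GL (Fin n) F := glOfPreserves hF M hpres
  have hx : ∀ u, (x : Matrix (Fin n) (Fin n) F) *ᵥ u = u + (c * ⟪u, v⟫) • v :=
    fun u => unitaryTransvection_mulVec v c u
  have hxv : (x : Matrix (Fin n) (Fin n) F) *ᵥ v = v := by
    rw [hx, hv]
    simp
  have hpow : ∀ k : ℕ, ∀ u, ((x ^ k : GL (Fin n) F) : Matrix (Fin n) (Fin n) F) *ᵥ u =
      u + ((k : F) * (c * ⟪u, v⟫)) • v := by
    intro k
    induction k with
    | zero => intro u; simp
    | succ k ih =>
      intro u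
      rw [pow_succ, Units.val_mul, ← Matrix.mulVec_mulVec, hx, ih, hermForm_add_left,
        hermForm_smul_left, hv]
      simp only [mul_zero, add_zero, Nat.cast_add, Nat.cast_one]
      rw [add_assoc, ← add_smul]
      congr 2
      ring
  refine ⟨x, c, v, Subgroup.mem_inf.2 ⟨glOfPreserves_mem hF M hpres, (mem_specialLinear_iff x).2
    (det_unitaryTransvection v c hv)⟩, hc0, hv0, hx, ?_, ?_⟩
  · apply Units.ext
    rw [Units.val_one]
    ext i j
    have h1 := congrFun (hpow p (Pi.single j 1)) i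
    have h2 : ((p : ℕ) : F) = 0 := CharP.cast_eq_zero F p
    rw [h2] at h1
    have h3 : (1 : Matrix (Fin n) (Fin n) F) i j = (Pi.single j (1 : F) : Fin n → F) i := by
      simp [Matrix.one_apply, Pi.single_apply]
    rw [h3]
    simpa using h1
  · intro z hz
    have h1 : v = z • v := by
      have := hxv
      rw [hz, Matrix.smul_mulVec, Matrix.one_mulVec] at this
      exact this.symm
    have hz1 : z = 1 := by
      obtain ⟨i, hi⟩ := Function.ne_iff.1 hv0
      have := congrFun h1 i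
      simp only [Pi.smul_apply, smul_eq_mul] at this
      have h3 : (z - 1) * v i = 0 := by rw [sub_mul, ← this]; ring
      rcases mul_eq_zero.1 h3 with h4 | h4
      · exact sub_eq_zero.1 h4
      · exact absurd h4 hi
    apply hv0
    apply hermForm_nondegenerate_right hF n v
    intro u
    have h2 := hx u
    rw [hz, hz1, one_smul, Matrix.one_mulVec] at h2
    have h3 : (c * ⟪u, v⟫) • v = 0 := by
      have := h2.symm
      simpa using this
    rcases smul_eq_zero.1 h3 with h4 | h4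
    · exact (mul_eq_zero.1 h4).resolve_left hc0
    · exact absurd h4 hv0

/-- `x` fixes no pair. -/
def NoFix (q : ℕ) (x : Matrix (Fin n) (Fin n) F) : Prop :=
  ∀ A B : Submodule F (Fin n → F), IsTIPair q A B → (∀ v ∈ A, x *ᵥ v ∈ A) → (∀ v ∈ B, x *ᵥ v ∈ B) → False

/-! ### Diagonal elements -/

section Diag

variable (hF : Fintype.card F = q ^ 2)

/-- The diagonal element of `GU`. -/
noncomputable def diagGL (d : Fin n → F) (hd : ∀ k, d k ^ (q + 1) = 1) : GL (Fin n) F :=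
  glOfPreserves hF (Matrix.diagonal d) (preserves_diagonal d hd)

theorem coe_diagGL (d : Fin n → F) (hd : ∀ k, d k ^ (q + 1) = 1) :
    ((diagGL hF d hd : GL (Fin n) F) : Matrix (Fin n) (Fin n) F) = Matrix.diagonal d := rfl

theorem diagGL_mem (d : Fin n → F) (hd : ∀ k, d k ^ (q + 1) = 1) (hdet : ∏ k, d k = 1) :
    diagGL hF d hd ∈ Cfsg.GU n F q ⊓ Cfsg.Geo.specialLinear (Fin n) F := by
  refine Subgroup.mem_inf.2 ⟨glOfPreserves_mem hF _ _, (mem_specialLinear_iff _).2 ?_⟩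
  rw [coe_diagGL, Matrix.det_diagonal, hdet]

theorem diagGL_pow (d : Fin n → F) (hd : ∀ k, d k ^ (q + 1) = 1) (r : ℕ) :
    ((diagGL hF d hd ^ r : GL (Fin n) F) : Matrix (Fin n) (Fin n) F) = Matrix.diagonal (fun k => d k ^ r) := by
  rw [Units.val_pow_eq_pow_val, coe_diagGL, Matrix.diagonal_pow]
  rfl

include hF in
/-- The element with an eigenvalue of multiplicity one. -/
theorem noFix_diag {d : Fin n → F} {i₀ : Fin n} (hne : ∀ k, k ≠ i₀ → d k ≠ d i₀) :
    NoFix q (Matrix.diagonal d) := by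
  classical
  intro A B h hxA hxB
  refine no_fix_of_line h hxA hxB (l := d i₀) (e := Pi.single i₀ 1) ?_ ?_ ?_
  · rw [hermForm_single_single hF, if_pos rfl]
    exact one_ne_zero
  · funext k
    simp only [Matrix.mulVec_diagonal, Pi.smul_apply, smul_eq_mul, Pi.single_apply]
    by_cases hk : k = i₀
    · subst hk
      simp
    · simp [hk]
  · intro w hw
    refine ⟨w i₀, ?_⟩
    funext k
    by_cases hk : k = i₀
    · subst hk
      simp
    · have h1 := congrFun hw k
      simp only [Matrix.mulVec_diagonal, Pi.smul_apply, smul_eq_mul] at h1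
      have h2 : (d k - d i₀) * w k = 0 := by rw [sub_mul, h1]; ring
      have h3 : w k = 0 := (mul_eq_zero.1 h2).resolve_left (sub_ne_zero.2 (hne k hk))
      simp [h3, Pi.single_apply, hk]

/-- Nonscalar diagonal elements. -/
theorem diag_ne_scalar {d : Fin n → F} {i₀ i₁ : Fin n} (hne : d i₀ ≠ d i₁) (z : F) :
    Matrix.diagonal d ≠ z • (1 : Matrix (Fin n) (Fin n) F) := by
  classical
  intro h
  have h0 := congrFun (congrFun h i₀) i₀
  have h1 := congrFun (congrFun h i₁) i₁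
  simp only [Matrix.diagonal_apply_eq, Matrix.smul_apply, Matrix.one_apply_eq, smul_eq_mul, mul_one] at h0 h1
  exact hne (h0.trans h1.symm)

include hF in
/-- Elements of odd prime order dividing `q + 1`. -/
theorem exists_diag_elt (hn : 2 ≤ n) {r : ℕ} [Fact r.Prime] (hr2 : r ≠ 2) (hrq : r ∣ q + 1) :
    ∃ x : GL (Fin n) F, x ∈ Cfsg.GU n F q ⊓ Cfsg.Geo.specialLinear (Fin n) F ∧ x ^ r = 1 ∧
      (∀ z : F, (x : Matrix (Fin n) (Fin n) F) ≠ z • (1 : Matrix (Fin n) (Fin n) F)) ∧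
      NoFix q (x : Matrix (Fin n) (Fin n) F) := by
  classical
  obtain ⟨ζ₀, hζ₀⟩ := exists_prime_orderOf_dvd_card' (G := normOne F q) r (by rw [card_normOne hF]; exact hrq)
  have hord : orderOf ((ζ₀ : Fˣ) : F) = r := by
    rw [orderOf_units, Subgroup.orderOf_coe, hζ₀]
  set ζ : F := ((ζ₀ : Fˣ) : F) with hζ
  have hr : r.Prime := Fact.out
  have hζr : ζ ^ r = 1 := by rw [← hord]; exact pow_orderOf_eq_one _
  have hζ0 : ζ ≠ 0 := Units.ne_zero _
  have hζq : ζ ^ (q + 1) = 1 := by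
    have := (mem_normOne _).1 ζ₀.2
    have h2 := congrArg Units.val this
    simpa using h2
  have hζ1 : ζ ≠ 1 := by
    intro h1
    rw [h1, orderOf_one] at hord
    exact hr.one_lt.ne hord
  have hζ2 : ζ ^ 2 ≠ 1 := by
    intro h1
    have := orderOf_dvd_of_pow_eq_one h1
    rw [hord] at this
    exact hr2 ((Nat.prime_dvd_prime_iff_eq hr Nat.prime_two).1 this)
  have hζinv : ζ ≠ ζ⁻¹ := by
    intro h1
    apply hζ2
    have h3 : ζ * ζ⁻¹ = 1 := mul_inv_cancel₀ hζ0
    rw [← h1] at h3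
    rw [sq]
    exact h3
  let i₀ : Fin n := ⟨0, by omega⟩
  let i₁ : Fin n := ⟨1, by omega⟩
  have h01 : i₀ ≠ i₁ := by simp [i₀, i₁, Fin.ext_iff]
  let d : Fin n → F := fun k => if k = i₀ then ζ else if k = i₁ then ζ⁻¹ else 1
  have hd0 : d i₀ = ζ := by simp [d]
  have hd1 : d i₁ = ζ⁻¹ := by simp [d, h01.symm]
  have hd2 : ∀ k, k ≠ i₀ → k ≠ i₁ → d k = 1 := fun k h0 h1 => by simp [d, h0, h1]
  have hinv : ζ⁻¹ ^ (q + 1) = 1 := by rw [inv_pow, hζq, inv_one]
  have hd : ∀ k, d k ^ (q + 1) = 1 := by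
    intro k
    by_cases h0 : k = i₀
    · rw [h0, hd0, hζq]
    by_cases h1 : k = i₁
    · rw [h1, hd1, hinv]
    · rw [hd2 k h0 h1, one_pow]
  have hdet : ∏ k, d k = 1 := by
    rw [Fintype.prod_eq_mul i₀ i₁ h01 (fun k hk => hd2 k hk.1 hk.2), hd0, hd1, mul_inv_cancel₀ hζ0]
  refine ⟨diagGL hF d hd, diagGL_mem hF d hd hdet, ?_, ?_, ?_⟩
  · apply Units.ext
    rw [diagGL_pow, Units.val_one]
    have : (fun k => d k ^ r) = fun _ => 1 := by
      funext k
      by_cases h0 : k = i₀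
      · rw [h0, hd0, hζr]
      by_cases h1 : k = i₁
      · rw [h1, hd1, inv_pow, hζr, inv_one]
      · rw [hd2 k h0 h1, one_pow]
    rw [this]
    exact Matrix.diagonal_one
  · intro z
    rw [coe_diagGL]
    exact diag_ne_scalar (i₀ := i₀) (i₁ := i₁) (by rw [hd0, hd1]; exact hζinv) z
  · rw [coe_diagGL]
    refine noFix_diag hF (i₀ := i₀) ?_
    intro k hk
    rw [hd0]
    by_cases h1 : k = i₁
    · rw [h1, hd1]
      exact hζinv.symm
    · rw [hd2 k hk h1]
      exact hζ1.symm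

include hF in
/-- `2 ≠ 0` when `q` is odd. -/
theorem two_ne_zero_of_odd (hodd : Odd q) : (2 : F) ≠ 0 := by
  obtain ⟨p, k, hp, hc, hqp⟩ := exists_char_pow hF
  haveI := hc
  intro h2
  have h3 : ((2 : ℕ) : F) = 0 := by exact_mod_cast h2
  rw [CharP.cast_eq_zero_iff F p] at h3
  have hp2 : p = 2 := (Nat.prime_dvd_prime_iff_eq hp Nat.prime_two).1 h3
  have hq := two_le_q hF
  rcases k with _ | k
  · simp at hqp
    omega
  · rw [hqp, hp2, pow_succ] at hodd
    exact (Nat.not_odd_iff_even.2 (even_two.mul_left _)) hodd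

include hF in
/-- Roots of `-1` in the norm-one group, for the sign element. -/
theorem exists_root_neg_one {n : ℕ} (hn : n ≠ 0)
    (hv : padicValNat 2 n < padicValNat 2 (q + 1)) : ∃ w : F, w ^ (q + 1) = 1 ∧ w ^ n = -1 := by
  classical
  obtain ⟨t, n', hn', rfl⟩ := Nat.exists_eq_two_pow_mul_odd hn
  haveI : Fact (Nat.Prime 2) := ⟨Nat.prime_two⟩
  have hn'0 : n' ≠ 0 := fun h => by simp [h] at hn'
  have hvt : padicValNat 2 (2 ^ t * n') = t := by
    rw [padicValNat.mul (by positivity) hn'0, padicValNat.prime_pow,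
      padicValNat.eq_zero_of_not_dvd (Odd.not_two_dvd_nat hn'), add_zero]
  rw [hvt] at hv
  have hdvd : 2 ^ (t + 1) ∣ q + 1 := (padicValNat_dvd_iff_le (by omega)).2 hv
  obtain ⟨e, he⟩ := hdvd
  have he0 : e ≠ 0 := by
    rintro rfl
    omega
  obtain ⟨g, hg⟩ := IsCyclic.exists_ofOrder_eq_natCard (α := normOne F q)
  rw [card_normOne hF] at hg
  have hu : orderOf (g ^ e) = 2 ^ (t + 1) := by
    rw [orderOf_pow_of_dvd he0 (by rw [hg, he]; exact dvd_mul_left _ _), hg, he,
      Nat.mul_div_cancel _ (Nat.pos_of_ne_zero he0)]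
  set u := g ^ e with hu'
  have huF : orderOf ((u : Fˣ) : F) = 2 ^ (t + 1) := by
    rw [orderOf_units, Subgroup.orderOf_coe, hu]
  refine ⟨((u : Fˣ) : F), ?_, ?_⟩
  · have := (mem_normOne _).1 u.2
    have h2 := congrArg Units.val this
    simpa using h2
  · set w : F := ((u : Fˣ) : F) with hw
    have h1 : w ^ 2 ^ (t + 1) = 1 := by rw [← huF]; exact pow_orderOf_eq_one _
    have h2 : w ^ 2 ^ t ≠ 1 := by
      apply pow_ne_one_of_lt_orderOf (by positivity)
      rw [huF]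
      exact Nat.pow_lt_pow_right (by norm_num) (by omega)
    have h3 : w ^ 2 ^ t * w ^ 2 ^ t = 1 := by
      rw [← pow_add, ← two_mul, ← pow_succ']
      exact h1
    have h4 : w ^ 2 ^ t = -1 := (mul_self_eq_one_iff.1 h3).resolve_left h2
    rw [pow_mul, h4, hn'.neg_one_pow]

include hF in
/-- The element `w · diag(-1, 1, ..., 1)`. -/
theorem exists_sign_elt (hodd : Odd q) (hn : 2 ≤ n) (hv : padicValNat 2 n < padicValNat 2 (q + 1)) :
    ∃ x : GL (Fin n) F, x ∈ Cfsg.GU n F q ⊓ Cfsg.Geo.specialLinear (Fin n) F ∧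
      (∃ z : F, ((x ^ 2 : GL (Fin n) F) : Matrix (Fin n) (Fin n) F) = z • (1 : Matrix (Fin n) (Fin n) F)) ∧
      (∀ z : F, (x : Matrix (Fin n) (Fin n) F) ≠ z • (1 : Matrix (Fin n) (Fin n) F)) ∧
      NoFix q (x : Matrix (Fin n) (Fin n) F) ∧
      ∃ (l : F) (e : Fin n → F), l ≠ 0 ∧ ∀ u, ⟪u, e⟫ = 0 → (x : Matrix (Fin n) (Fin n) F) *ᵥ u = l • u := by
  classical
  obtain ⟨w, hw1, hw2⟩ := exists_root_neg_one hF (n := n) (by omega) hv
  have h2 := two_ne_zero_of_odd hF hodd
  have hw0 : w ≠ 0 := by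
    rintro rfl
    rw [zero_pow (by omega)] at hw1
    exact zero_ne_one hw1
  let i₀ : Fin n := ⟨0, by omega⟩
  let i₁ : Fin n := ⟨1, by omega⟩
  have h01 : i₀ ≠ i₁ := by simp [i₀, i₁, Fin.ext_iff]
  let d : Fin n → F := fun k => if k = i₀ then -w else w
  have hd0 : d i₀ = -w := by simp [d]
  have hd1 : ∀ k, k ≠ i₀ → d k = w := fun k h0 => by simp [d, h0]
  have hneg : (-w) ^ (q + 1) = 1 := by
    rw [(hodd.add_one).neg_pow, hw1]
  have hd : ∀ k, d k ^ (q + 1) = 1 := by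
    intro k
    by_cases h0 : k = i₀
    · rw [h0, hd0, hneg]
    · rw [hd1 k h0, hw1]
  have hdet : ∏ k, d k = 1 := by
    have h3 : ∀ k, d k = (if k = i₀ then -1 else 1) * w := by
      intro k
      by_cases h0 : k = i₀
      · simp [d, h0]
      · simp [d, h0]
    simp only [h3]
    rw [Finset.prod_mul_distrib, Finset.prod_ite_eq' Finset.univ i₀ (fun _ => (-1 : F))]
    simp [hw2]
  have hne : -w ≠ w := by
    intro h
    have h3 : (2 : F) * w = 0 := by linear_combination -h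
    exact (mul_ne_zero h2 hw0) h3
  refine ⟨diagGL hF d hd, diagGL_mem hF d hd hdet, ⟨w ^ 2, ?_⟩, ?_, ?_, w, Pi.single i₀ 1, hw0, ?_⟩
  · rw [diagGL_pow]
    have : (fun k => d k ^ 2) = fun _ => w ^ 2 := by
      funext k
      by_cases h0 : k = i₀
      · rw [h0, hd0, neg_sq]
      · rw [hd1 k h0]
    rw [this]
    ext i j
    by_cases hij : i = j
    · subst hij
      simp
    · simp [hij, Matrix.one_apply]
  · intro z
    rw [coe_diagGL]
    exact diag_ne_scalar (i₀ := i₀) (i₁ := i₁) (by rw [hd0, hd1 i₁ h01.symm]; exact hne) z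
  · rw [coe_diagGL]
    refine noFix_diag hF (i₀ := i₀) ?_
    intro k hk
    rw [hd0, hd1 k hk]
    exact hne.symm
  · intro u hu
    have hu0 : u i₀ = 0 := by
      have : ⟪u, Pi.single i₀ 1⟫ = u i₀ := by
        rw [hermForm_apply, Finset.sum_eq_single i₀]
        · simp
        · intro b _ hb
          simp [Pi.single_apply, hb, zero_pow_q hF]
        · intro h
          exact absurd (Finset.mem_univ _) h
      rw [← this]
      exact hu
    rw [coe_diagGL]
    funext k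
    rw [Matrix.mulVec_diagonal]
    simp only [Pi.smul_apply, smul_eq_mul]
    by_cases h0 : k = i₀
    · rw [h0, hu0]
      simp
    · rw [hd1 k h0]

end Diag

end Cfsg.Agent.Lib.Classical.PairU
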