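import Mathlib
import Cfsg.Agent.Lib.Classical.PairU.NoPair
import Cfsg.Agent.Lib.Classical.Herm.CycGU
import Cfsg.Agent.Lib.Linalg.Lev.Factor

/-!
# Elements of order `r` of `SU_n(q)` acting irreducibly on a nondegenerate subspace
-/

set_option autoImplicit false
set_option linter.unusedSectionVars false
set_option linter.unusedSimpArgs false
set_option linter.unusedVariables false
set_option linter.style.haveILetI false

open scoped Matrix MatrixGroups
open Module Polynomial
open Cfsg Cfsg.Agent.Lib.Classical.Herm.Basic Cfsg.Agent.Lib.Classical.Herm.Form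
open Cfsg.Agent.Lib.Classical.Herm.GU Cfsg.Agent.Lib.Classical.Herm.SU
open Cfsg.Agent.Lib.Classical.Herm.Block

namespace Cfsg.Agent.Lib.Classical.PairU

variable {F : Type*} [Field F] [Fintype F] {q n m b c : ℕ}

local notation "⟪" x ", " y "⟫" => hermForm _ _ q x y

/-- A matrix whose characteristic polynomial is irreducible has no invariant subspaces. -/
theorem eq_bot_or_top_of_irreducible {M : Matrix (Fin b) (Fin b) F} (hM : Irreducible M.charpoly)
    (W : Submodule F (Fin b → F)) (hW : ∀ v ∈ W, M *ᵥ v ∈ W) : W = ⊥ ∨ W = ⊤ := by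
  classical
  by_cases hW0 : W = ⊥
  · exact Or.inl hW0
  right
  let f : Module.End F (Fin b → F) := M.mulVecLin
  have hf : ∀ v ∈ W, f v ∈ W := hW
  let g : Module.End F W := f.restrict hf
  have haux : aeval g M.charpoly = 0 := by
    apply LinearMap.ext
    intro v
    apply Subtype.ext
    rw [Cfsg.Agent.Lib.Linalg.Lev.coe_aeval_restrict W f hf]
    have h1 : aeval f M.charpoly = 0 := by
      have h2 : f = Matrix.toLin' M := by
        ext; simp [f]
      rw [h2, ← Matrix.charpoly_toLin']
      exact LinearMap.aeval_self_charpoly _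
    rw [h1]
    simp
  have hnt : Nontrivial W := Submodule.nontrivial_iff_ne_bot.2 hW0
  have hdvd : minpoly F g ∣ M.charpoly := minpoly.dvd _ _ haux
  have hint : IsIntegral F g := Algebra.IsIntegral.isIntegral g
  have hne : ¬ IsUnit (minpoly F g) := minpoly.not_isUnit F g
  have hdeg : b ≤ finrank F W := by
    have h1 : M.charpoly ∣ minpoly F g := by
      rcases hM.dvd_iff.1 hdvd with h | ⟨u, hu⟩
      · exact absurd h hne
      · exact ⟨(u : F[X]), hu.symm⟩
    have hm0 : minpoly F g ≠ 0 := (minpoly.monic hint).ne_zero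
    have h2 := Polynomial.natDegree_le_of_dvd h1 hm0
    have h3 := Polynomial.natDegree_le_of_dvd (LinearMap.minpoly_dvd_charpoly g)
      (LinearMap.charpoly_monic g).ne_zero
    rw [LinearMap.charpoly_natDegree] at h3
    rw [Matrix.charpoly_natDegree_eq_dim] at h2
    simp only [Fintype.card_fin] at h2
    omega
  apply Submodule.eq_top_of_finrank_eq
  have h1 := Submodule.finrank_le W
  simp only [finrank_fin_fun] at h1 ⊢
  omega

theorem blkMat_pow (M : Matrix (Fin b) (Fin b) F) (k : ℕ) :
    (blkMat M (1 : Matrix (Fin c) (Fin c) F)) ^ k = blkMat (M ^ k) 1 := by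
  induction k with
  | zero => rw [pow_zero, pow_zero, blkMat_one]
  | succ k ih => rw [pow_succ, pow_succ, ih, ← blkMat_mul, one_mul]

theorem blk_glue (M : Matrix (Fin b) (Fin b) F) (u : Fin b → F) :
    blkMat M (1 : Matrix (Fin c) (Fin c) F) *ᵥ glue u 0 = glue (M *ᵥ u) 0 := by
  apply ext_LR
  · rw [L_blk, L_glue, L_glue]
  · rw [R_blk, R_glue, R_glue, Matrix.one_mulVec]

/-- The key point: a matrix with irreducible characteristic polynomial and no eigenvalue one, on a
nondegenerate subspace, fixes no pair. -/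
theorem noFix_blk (hF : Fintype.card F = q ^ 2) {M : Matrix (Fin b) (Fin b) F} (hb : 1 ≤ b)
    (hM : Irreducible M.charpoly) (hM1 : ∀ u, M *ᵥ u = u → u = 0) :
    NoFix q (blkMat M (1 : Matrix (Fin c) (Fin c) F)) := by
  classical
  intro A B h hxA hxB
  set x := blkMat M (1 : Matrix (Fin c) (Fin c) F) with hx
  let i₀ : Fin b := ⟨0, by omega⟩
  let e : Fin b → F := Pi.single i₀ 1
  have he0 : e ≠ 0 := by
    intro h0
    have := congrFun h0 i₀
    simp [e] at this
  have hee : hermForm (b + c) F q (glue e 0) (glue e 0) ≠ 0 := by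
    rw [hermForm_LR, L_glue, R_glue, hermForm_zero_left, add_zero, hermForm_single_single hF, if_pos rfl]
    exact one_ne_zero
  have key : ∀ {A' : Submodule F (Fin (b + c) → F)}, (∀ u ∈ A', ∀ v ∈ A', hermForm (b + c) F q u v = 0) →
      (∀ v ∈ A', x *ᵥ v ∈ A') → ∀ u, glue u 0 ∈ A' → u = 0 := by
    intro A' hti hxA' u hu
    let W : Submodule F (Fin b → F) :=
      { carrier := {u | glue u (0 : Fin c → F) ∈ A'}
        add_mem' := by
          intro a a' ha ha'
          have : glue (a + a') (0 : Fin c → F) = glue a 0 + glue a' 0 := by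
            apply ext_LR <;> simp
          simp only [Set.mem_ofPred_eq]
          rw [this]
          exact A'.add_mem ha ha'
        zero_mem' := by
          have : glue (0 : Fin b → F) (0 : Fin c → F) = 0 := by
            apply ext_LR <;> simp
          simp only [Set.mem_ofPred_eq]
          rw [this]
          exact A'.zero_mem
        smul_mem' := by
          intro t a ha
          have : glue (t • a) (0 : Fin c → F) = t • glue a 0 := by
            apply ext_LR <;> simp
          simp only [Set.mem_ofPred_eq]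
          rw [this]
          exact A'.smul_mem t ha }
    have hW : ∀ v ∈ W, M *ᵥ v ∈ W := by
      intro v hv
      change glue (M *ᵥ v) 0 ∈ A'
      rw [← blk_glue]
      exact hxA' _ hv
    rcases eq_bot_or_top_of_irreducible hM W hW with h0 | h0
    · have : u ∈ W := hu
      rw [h0] at this
      exact this
    · exfalso
      have : e ∈ W := by rw [h0]; trivial
      exact hee (hti _ this _ this)
  have hA := key h.tiA hxA
  have hB := key h.tiB hxB
  have hw : glue e (0 : Fin c → F) ∈ A ⊔ B := by rw [h.compl.sup_eq_top]; trivial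
  obtain ⟨a, ha, a', ha', hab⟩ := Submodule.mem_sup.1 hw
  -- the commutator with `x` on the two parts
  have hcomm : ∀ {A' : Submodule F (Fin (b + c) → F)}, (∀ u, glue u 0 ∈ A' → u = 0) →
      (∀ v ∈ A', x *ᵥ v ∈ A') → ∀ a ∈ A', x *ᵥ a = a := by
    intro A' hk hxA' a ha
    have h1 : x *ᵥ a - a ∈ A' := A'.sub_mem (hxA' a ha) ha
    have h2 : x *ᵥ a - a = glue (L (x *ᵥ a - a)) 0 := by
      apply ext_LR
      · rw [L_glue]
      · rw [R_glue]
        funext j
        have h3 : R (x *ᵥ a) = R a := by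
          rw [hx, R_blk, Matrix.one_mulVec]
        have h4 := congrFun h3 j
        simp only [R, Pi.sub_apply, Pi.zero_apply] at h4 ⊢
        rw [h4, sub_self]
    have h3 := hk _ (h2 ▸ h1)
    rw [h3] at h2
    have h4 : glue (0 : Fin b → F) (0 : Fin c → F) = 0 := by
      apply ext_LR <;> simp
    rw [h4] at h2
    exact sub_eq_zero.1 h2
  have h1 : x *ᵥ glue e (0 : Fin c → F) = glue e 0 := by
    rw [← hab, Matrix.mulVec_add, hcomm hA hxA a ha, hcomm hB hxB a' ha']
  rw [hx, blk_glue] at h1
  have h2 : M *ᵥ e = e := by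
    have := congrArg L h1
    simpa using this
  exact he0 (hM1 e h2)

/-- Elements of order `r` acting irreducibly on a nondegenerate subspace. -/
theorem exists_block_elt (hF : Fintype.card F = q ^ 2) {p : ℕ} [Fact p.Prime] [CharP F p] {r : ℕ}
    [Fact r.Prime] (hr2 : r ≠ 2) (hrp : r ≠ p) (hi : orderOf (q : ZMod r) % 4 = 2)
    (hb : 2 ≤ orderOf ((q ^ 2 : ℕ) : ZMod r)) (hbn : orderOf ((q ^ 2 : ℕ) : ZMod r) < n) :
    ∃ x : GL (Fin n) F, x ∈ Cfsg.GU n F q ⊓ Cfsg.Geo.specialLinear (Fin n) F ∧ x ^ r = 1 ∧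
      (∀ z : F, (x : Matrix (Fin n) (Fin n) F) ≠ z • (1 : Matrix (Fin n) (Fin n) F)) ∧
      NoFix q (x : Matrix (Fin n) (Fin n) F) := by
  classical
  have hr : r.Prime := Fact.out
  obtain ⟨D, hD1, hD2, hD3, hD4, hQu⟩ :=
    Cfsg.Agent.Lib.Classical.Herm.CycTuples.exists_cyc_data (F := F) (p := p) (Q := q ^ 2) hF hr hrp
  have hDne : D.Nonempty := by
    rw [Finset.nonempty_iff_ne_empty]
    rintro rfl
    simp at hD3
    have := hr.two_le
    omega
  obtain ⟨d, hdD⟩ := hDne
  obtain ⟨hdm, hdi, hdeg, hdne⟩ := hD1 d hdD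
  have hdvd : d ∣ X ^ r - 1 := by
    have := (hD2 d hdm hdi 1 one_pos).2 ⟨rfl, Or.inr hdD⟩
    simpa using this
  have h0 := Cfsg.Agent.Lib.Classical.Herm.CycTuples.coeff_zero_ne_of_dvd hr.pos hdvd
  have hQr : IsUnit ((q : ℕ) : ZMod r) := by
    have : IsUnit (((q : ℕ) : ZMod r) ^ 2) := by simpa [Nat.cast_pow] using hQu
    exact (isUnit_pow_iff (by norm_num)).1 this
  have hdual : Cfsg.Agent.Lib.Classical.Herm.Wall.dualP hF d = d :=
    (Cfsg.Agent.Lib.Classical.Herm.CycGU.dualP_eq_self_iff hF hr2 hQr hdm hdi hdeg hdvd hdne h0).2 hi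
  generalize hbb : orderOf ((q ^ 2 : ℕ) : ZMod r) = bb at hb hbn hdeg
  obtain ⟨G, -, hG⟩ := Cfsg.Agent.Lib.Classical.Herm.CycGU.exists_GU_of_dualP hF (p := p) (n := bb)
    hdm hdeg h0 hdual
  obtain ⟨c', rfl⟩ : ∃ c', n = bb + c' := ⟨n - bb, by omega⟩
  have hc' : 1 ≤ c' := by omega
  set M : Matrix (Fin bb) (Fin bb) F := ((G : GL (Fin bb) F) : Matrix (Fin bb) (Fin bb) F) with hM
  have hpres : Preserves q M := G.2
  have hMd : aeval M d = 0 := by
    rw [← hG]
    exact Matrix.aeval_self_charpoly M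
  have hMr : M ^ r = 1 := by
    obtain ⟨e, he⟩ := hdvd
    have h1 : aeval M (X ^ r - 1 : F[X]) = 0 := by rw [he, map_mul, hMd, zero_mul]
    simp only [map_sub, map_pow, aeval_X, map_one] at h1
    exact sub_eq_zero.1 h1
  have hM1 : ∀ u, M *ᵥ u = u → u = 0 := by
    intro u hu
    have h1 : (Matrix.scalar (Fin bb) (1 : F) - M).det ≠ 0 := by
      rw [← Matrix.eval_charpoly, hG]
      exact Cfsg.Agent.Lib.Classical.Herm.CycTuples.eval_one_ne hdm hdi hdne
    by_contra hu0
    apply h1
    apply Matrix.exists_mulVec_eq_zero_iff.1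
    refine ⟨u, hu0, ?_⟩
    rw [Matrix.sub_mulVec, hu]
    simp [Matrix.scalar_apply, Matrix.mulVec_diagonal]
  have hdet1 : M.det = 1 := by
    have h1 : M.det ^ r = 1 := by rw [← Matrix.det_pow, hMr, Matrix.det_one]
    have h2 : M.det ^ (q + 1) = 1 := det_pow_succ hF M hpres
    have hcop : r.Coprime (q + 1) := by
      rw [Nat.Prime.coprime_iff_not_dvd hr]
      intro hdvd
      have h3 : ((q + 1 : ℕ) : ZMod r) = 0 := (ZMod.natCast_eq_zero_iff _ _).2 hdvd
      have h4 : ((q ^ 2 : ℕ) : ZMod r) = 1 := by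
        push_cast at h3 ⊢
        have h5 : (q : ZMod r) = -1 := eq_neg_of_add_eq_zero_left h3
        rw [h5]
        ring
      rw [h4, orderOf_one] at hbb
      omega
    have h3 := pow_gcd_eq_one.2 ⟨h1, h2⟩
    rw [hcop.gcd_eq_one, pow_one] at h3
    exact h3
  have hpres1 : Preserves q (1 : Matrix (Fin c') (Fin c') F) := by
    intro u v
    rw [Matrix.one_mulVec, Matrix.one_mulVec]
  have hpres2 := preserves_blkMat hpres hpres1
  refine ⟨glOfPreserves hF _ hpres2, Subgroup.mem_inf.2 ⟨glOfPreserves_mem hF _ _,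
    (mem_specialLinear_iff _).2 ?_⟩, ?_, ?_, ?_⟩
  · rw [coe_glOfPreserves, det_blkMat, Matrix.det_one, hdet1, one_mul]
  · apply Units.ext
    rw [Units.val_pow_eq_pow_val, coe_glOfPreserves, blkMat_pow, hMr, blkMat_one]
    rfl
  · intro z hz
    rw [coe_glOfPreserves] at hz
    have hb1 : 1 ≤ bb := by omega
    let i₀ : Fin bb := ⟨0, by omega⟩
    let e : Fin bb → F := Pi.single i₀ 1
    let j₀ : Fin c' := ⟨0, by omega⟩
    let e' : Fin c' → F := Pi.single j₀ 1
    have h1 : blkMat M (1 : Matrix (Fin c') (Fin c') F) *ᵥ glue e e' = z • glue e e' := by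
      rw [hz, Matrix.smul_mulVec, Matrix.one_mulVec]
    have hR := congrArg R h1
    rw [R_blk, R_glue, R_smul, R_glue, Matrix.one_mulVec] at hR
    have hz1 : z = 1 := by
      have := congrFun hR j₀
      simp [e'] at this
      exact this.symm
    have hL := congrArg L h1
    rw [L_blk, L_glue, L_smul, L_glue, hz1, one_smul] at hL
    have := hM1 e hL
    have h2 := congrFun this i₀
    simp [e] at h2
  · rw [coe_glOfPreserves]
    refine noFix_blk hF (by omega) ?_ hM1
    rw [hG]
    exact hdi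

end Cfsg.Agent.Lib.Classical.PairU
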