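import Mathlib
import Cfsg.Agent.Lib.Classical.PairU.BlockElt

/-!
# Involutions of `PSU_n(q)`, `q` odd, and pairs of totally singular subspaces
-/

set_option autoImplicit false
set_option linter.unusedSectionVars false
set_option linter.unusedSimpArgs false
set_option linter.unusedVariables false
set_option linter.style.haveILetI false

open scoped Matrix MatrixGroups
open Module
open Cfsg Cfsg.Agent.Lib.Classical.Herm.Basic Cfsg.Agent.Lib.Classical.Herm.Form
open Cfsg.Agent.Lib.Classical.Herm.GU Cfsg.Agent.Lib.Classical.Herm.SU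
open Cfsg.Agent.Lib.Classical.Herm.Block

namespace Cfsg.Agent.Lib.Classical.PairU

variable {F : Type*} [Field F] [Fintype F] {q n m : ℕ}

local notation "⟪" x ", " y "⟫" => hermForm _ _ q x y

/-- Eigenspaces. -/
def eigSp (x : Matrix (Fin n) (Fin n) F) (y : F) : Submodule F (Fin n → F) where
  carrier := {v | x *ᵥ v = y • v}
  add_mem' := by
    intro a b ha hb
    simp only [Set.mem_ofPred_eq] at ha hb ⊢
    rw [Matrix.mulVec_add, ha, hb, smul_add]
  zero_mem' := by simp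
  smul_mem' := by
    intro c a ha
    simp only [Set.mem_ofPred_eq] at ha ⊢
    rw [Matrix.mulVec_smul, ha, smul_comm]

theorem mem_eigSp {x : Matrix (Fin n) (Fin n) F} {y : F} {v : Fin n → F} :
    v ∈ eigSp x y ↔ x *ᵥ v = y • v := Iff.rfl

theorem isCompl_eig {x : Matrix (Fin n) (Fin n) F} {y : F} (hx : x * x = (y * y) • (1 : Matrix (Fin n) (Fin n) F))
    (hy : y ≠ 0) (h2 : (2 : F) ≠ 0) : IsCompl (eigSp x y) (eigSp x (-y)) := by
  have hxx : ∀ v, x *ᵥ (x *ᵥ v) = (y * y) • v := by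
    intro v
    rw [Matrix.mulVec_mulVec, hx, Matrix.smul_mulVec, Matrix.one_mulVec]
  have h2y : (2 * y) ≠ 0 := mul_ne_zero h2 hy
  constructor
  · rw [Submodule.disjoint_def]
    intro v hv hv'
    rw [mem_eigSp] at hv hv'
    have h1 : (2 * y) • v = 0 := by
      rw [two_mul, add_smul]
      have h3 : y • v = -((-y) • v) := by simp
      nth_rw 1 [h3]
      rw [← hv', ← hv]
      simp
    exact (smul_eq_zero.1 h1).resolve_left h2y
  · rw [codisjoint_iff, eq_top_iff]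
    intro v _
    refine Submodule.mem_sup.2 ⟨(2 * y)⁻¹ • (x *ᵥ v + y • v), ?_, (2 * y)⁻¹ • (y • v - x *ᵥ v), ?_, ?_⟩
    · rw [mem_eigSp, Matrix.mulVec_smul, Matrix.mulVec_add, Matrix.mulVec_smul, hxx]
      module
    · rw [mem_eigSp, Matrix.mulVec_smul, Matrix.mulVec_sub, Matrix.mulVec_smul, hxx]
      module
    · rw [← smul_add]
      have h3 : x *ᵥ v + y • v + (y • v - x *ᵥ v) = (2 * y) • v := by
        rw [two_mul, add_smul]
        abel
      rw [h3, smul_smul, inv_mul_cancel₀ h2y, one_smul]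

/-- The form on two eigenspaces of an isometry. -/
theorem herm_eig {x : Matrix (Fin n) (Fin n) F} (hx : Preserves q x) {a c : F} {u v : Fin n → F}
    (hu : u ∈ eigSp x a) (hv : v ∈ eigSp x c) : ⟪u, v⟫ = a * c ^ q * ⟪u, v⟫ := by
  have := hx u v
  rw [mem_eigSp.1 hu, mem_eigSp.1 hv, hermForm_smul_left, hermForm_smul_right] at this
  linear_combination -this

theorem det_of_eig {x : Matrix (Fin n) (Fin n) F} {y : F}
    (hc : IsCompl (eigSp x y) (eigSp x (-y))) :
    x.det = y ^ finrank F (eigSp x y) * (-y) ^ finrank F (eigSp x (-y)) := by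
  classical
  let e := Submodule.prodEquivOfIsCompl _ _ hc
  let f₁ : Module.End F (eigSp x y) := y • LinearMap.id
  let f₂ : Module.End F (eigSp x (-y)) := (-y) • LinearMap.id
  have h1 : Matrix.toLin' x = (e : _ →ₗ[F] _) ∘ₗ (f₁.prodMap f₂) ∘ₗ (e.symm : _ →ₗ[F] _) := by
    apply LinearMap.ext
    intro v
    obtain ⟨w, rfl⟩ := e.surjective v
    simp only [LinearMap.comp_apply, LinearEquiv.coe_coe, LinearEquiv.symm_apply_apply]
    obtain ⟨a, b⟩ := w
    simp only [LinearMap.prodMap_apply, e, Submodule.coe_prodEquivOfIsCompl', f₁, f₂,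
      LinearMap.smul_apply, LinearMap.id_apply, Submodule.coe_smul, Matrix.toLin'_apply,
      Matrix.mulVec_add, mem_eigSp.1 a.2, mem_eigSp.1 b.2]
  rw [← LinearMap.det_toLin', h1, LinearMap.det_conj, LinearMap.det_prodMap, LinearMap.det_smul,
    LinearMap.det_smul, LinearMap.det_id, LinearMap.det_id, mul_one, mul_one]

/-- Splitting of a non-degenerate space of even dimension into two totally singular subspaces. -/
theorem exists_split (hF : Fintype.card F = q ^ 2) (h2 : (2 : F) ≠ 0) (W : Submodule F (Fin n → F))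
    (hnd : ∀ u ∈ W, (∀ v ∈ W, ⟪u, v⟫ = 0) → u = 0) (k : ℕ) (hk : finrank F W = k + k) :
    ∃ A B : Submodule F (Fin n → F), A ≤ W ∧ B ≤ W ∧ (∀ u ∈ A, ∀ v ∈ A, ⟪u, v⟫ = 0) ∧
      (∀ u ∈ B, ∀ v ∈ B, ⟪u, v⟫ = 0) ∧ A ⊔ B = W ∧ A ⊓ B = ⊥ := by
  classical
  have hh : Cfsg.Agent.Lib.Classical.Herm.HermOnb.IsHerm q (fun u v : W => ⟪(u : Fin n → F), (v : Fin n → F)⟫) :=
    { add_left := fun x y z => hermForm_add_left _ _ _ _
      smul_left := fun c x y => hermForm_smul_left _ _ _ _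
      herm := fun x y => (hermForm_pow_q hF _ _ _).symm
      nondeg := fun x hx => Subtype.ext (hnd x.1 x.2 fun v hv => hx ⟨v, hv⟩) }
  obtain ⟨Φ, hΦ⟩ := Cfsg.Agent.Lib.Classical.Herm.HermOnb.exists_isometry hF (k + k) W _ hh hk
  obtain ⟨c, hc⟩ := exists_norm_eq hF (-1 : F) (by simp) (by rw [pow_q_neg hF, one_pow])
  have hcc : c * c ^ q = -1 := by rw [← pow_succ']; exact hc
  have hc0 : c ≠ 0 := by
    rintro rfl
    rw [zero_mul] at hcc
    simp at hcc
  let graph (c : F) : Submodule F (Fin (k + k) → F) :=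
    { carrier := {u | R u = c • L u}
      add_mem' := by
        intro a b ha hb
        simp only [Set.mem_ofPred_eq] at ha hb ⊢
        rw [R_add, L_add, ha, hb, smul_add]
      zero_mem' := by simp
      smul_mem' := by
        intro t a ha
        simp only [Set.mem_ofPred_eq] at ha ⊢
        rw [R_smul, L_smul, ha, smul_comm] }
  let ψ : (Fin (k + k) → F) →ₗ[F] (Fin n → F) := W.subtype ∘ₗ (Φ : _ →ₗ[F] W)
  have hψ : ∀ a b, ⟪ψ a, ψ b⟫ = hermForm (k + k) F q a b := fun a b => hΦ a b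
  have hinj : Function.Injective ψ := by
    intro a b hab
    exact Φ.injective (Subtype.ext hab)
  have hrange : LinearMap.range ψ = W := by
    ext v
    constructor
    · rintro ⟨a, rfl⟩
      exact (Φ a).2
    · intro hv
      exact ⟨Φ.symm ⟨v, hv⟩, by simp [ψ]⟩
  have hti : ∀ t : F, t * t ^ q = -1 → ∀ u ∈ (graph t).map ψ, ∀ v ∈ (graph t).map ψ, ⟪u, v⟫ = 0 := by
    rintro t ht _ ⟨a, ha, rfl⟩ _ ⟨b, hb, rfl⟩
    have ha' : R a = t • L a := ha
    have hb' : R b = t • L b := hb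
    rw [hψ, hermForm_LR, ha', hb', hermForm_smul_left, hermForm_smul_right]
    linear_combination (hermForm k F q (L a) (L b)) * ht
  have hsup : graph c ⊔ graph (-c) = ⊤ := by
    rw [eq_top_iff]
    intro a _
    refine Submodule.mem_sup.2 ⟨glue ((2 : F)⁻¹ • (L a + c⁻¹ • R a)) (c • ((2 : F)⁻¹ • (L a + c⁻¹ • R a))), ?_,
      glue ((2 : F)⁻¹ • (L a - c⁻¹ • R a)) ((-c) • ((2 : F)⁻¹ • (L a - c⁻¹ • R a))), ?_, ?_⟩
    · change R _ = c • L _
      rw [R_glue, L_glue]
    · change R _ = (-c) • L _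
      rw [R_glue, L_glue]
    · apply ext_LR
      · rw [L_add, L_glue, L_glue]
        have h3 : (2 : F)⁻¹ * 2 = 1 := inv_mul_cancel₀ h2
        funext i
        simp only [Pi.add_apply, Pi.smul_apply, Pi.sub_apply, smul_eq_mul]
        linear_combination (L a i) * h3
      · rw [R_add, R_glue, R_glue]
        have h3 : (2 : F)⁻¹ * 2 = 1 := inv_mul_cancel₀ h2
        have h4 : c * c⁻¹ = 1 := mul_inv_cancel₀ hc0
        funext i
        simp only [Pi.add_apply, Pi.smul_apply, Pi.sub_apply, smul_eq_mul]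
        linear_combination (R a i) * h4 + (c * c⁻¹ * R a i) * h3
  have hinf : graph c ⊓ graph (-c) = ⊥ := by
    rw [eq_bot_iff]
    rintro a ⟨ha, ha'⟩
    have h3 : R a = c • L a := ha
    have h4 : R a = (-c) • L a := ha'
    have h5 : L a = 0 := by
      have h6 : (2 * c) • L a = 0 := by
        rw [two_mul, add_smul]
        nth_rw 1 [← neg_neg c]
        rw [neg_smul, ← h4, h3]
        simp
      exact (smul_eq_zero.1 h6).resolve_left (mul_ne_zero h2 hc0)
    have h6 : R a = 0 := by rw [h3, h5, smul_zero]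
    have h7 : a = 0 := ext_LR (by rw [h5]; rfl) (by rw [h6]; rfl)
    exact h7
  refine ⟨(graph c).map ψ, (graph (-c)).map ψ, ?_, ?_, hti c hcc, hti (-c) ?_, ?_, ?_⟩
  · rw [← hrange]
    exact LinearMap.map_le_range
  · rw [← hrange]
    exact LinearMap.map_le_range
  · rw [pow_q_neg hF]
    linear_combination hcc
  · rw [← Submodule.map_sup, hsup, Submodule.map_top, hrange]
  · rw [← Submodule.map_inf _ hinj, hinf, Submodule.map_bot]

/-- The parity of the eigenspaces. -/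
theorem even_of_det {y : F} (h2 : (2 : F) ≠ 0) (hy1 : y ^ (q + 1) = 1) {a b n : ℕ} (hab : a + b = n)
    (hn : Even n) (hn0 : n ≠ 0) (hv : padicValNat 2 (q + 1) ≤ padicValNat 2 n)
    (hdet : y ^ a * (-y) ^ b = 1) : Even a ∧ Even b := by
  have hb : Even b := by
    by_contra hb
    rw [Nat.not_even_iff_odd] at hb
    rw [hb.neg_pow] at hdet
    have h1 : y ^ n = -1 := by
      rw [← hab, pow_add]
      linear_combination -hdet
    obtain ⟨s, k, hk, hqs⟩ := Nat.exists_eq_two_pow_mul_odd (n := q + 1) (by omega)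
    haveI : Fact (Nat.Prime 2) := ⟨Nat.prime_two⟩
    have hk0 : k ≠ 0 := fun h => by simp [h] at hk
    have hvs : padicValNat 2 (q + 1) = s := by
      rw [hqs, padicValNat.mul (by positivity) hk0, padicValNat.prime_pow,
        padicValNat.eq_zero_of_not_dvd (Odd.not_two_dvd_nat hk), add_zero]
    rw [hvs] at hv
    obtain ⟨n', hn'⟩ : 2 ^ s ∣ n := (padicValNat_dvd_iff_le hn0).2 hv
    have h3 : (y ^ n) ^ k = 1 := by
      rw [← pow_mul, hn', show 2 ^ s * n' * k = (2 ^ s * k) * n' by ring, ← hqs, pow_mul, hy1, one_pow]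
    rw [h1, hk.neg_one_pow] at h3
    apply h2
    linear_combination -h3
  refine ⟨?_, hb⟩
  rw [← hab] at hn
  exact (Nat.even_add.1 hn).2 hb

/-- Every element of `SU` with scalar square fixes a pair when `(q+1)₂ ≤ n₂`. -/
theorem exists_pair_of_sq (hF : Fintype.card F = q ^ 2) (hodd : Odd q) {x : Matrix (Fin n) (Fin n) F}
    (hx : Preserves q x) (hdet : x.det = 1) {z : F} (hsq : x * x = z • (1 : Matrix (Fin n) (Fin n) F))
    (hn : Even n) (hn0 : n ≠ 0) (hv : padicValNat 2 (q + 1) ≤ padicValNat 2 n) :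
    ∃ A B : Submodule F (Fin n → F), IsTIPair q A B ∧ (∀ v ∈ A, x *ᵥ v ∈ A) ∧ (∀ v ∈ B, x *ᵥ v ∈ B) := by
  classical
  have h2 : (2 : F) ≠ 0 := two_ne_zero_of_odd hF hodd
  let i₀ : Fin n := ⟨0, by omega⟩
  let e : Fin n → F := Pi.single i₀ 1
  have hee : ⟪e, e⟫ = 1 := by
    rw [hermForm_single_single hF, if_pos rfl]
  have hxx : ∀ v, x *ᵥ (x *ᵥ v) = z • v := by
    intro v
    rw [Matrix.mulVec_mulVec, hsq, Matrix.smul_mulVec, Matrix.one_mulVec]
  have hz : z ^ (q + 1) = 1 := by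
    have h1 := hx (x *ᵥ e) (x *ᵥ e)
    rw [hx e e, hee, hxx, hermForm_smul_left, hermForm_smul_right, hee, mul_one] at h1
    rw [pow_succ']
    exact h1
  have hz0 : z ≠ 0 := by
    rintro rfl
    rw [zero_pow (by omega)] at hz
    exact zero_ne_one hz
  have hchar : ringChar F ≠ 2 := by
    intro hc
    apply h2
    have h3 := (ringChar.spec F 2).2 (by rw [hc])
    exact_mod_cast h3
  have hsqz : IsSquare z := by
    rw [FiniteField.isSquare_iff hchar hz0, hF]
    obtain ⟨s, hs⟩ := hodd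
    have h3 : q ^ 2 / 2 = (q + 1) * s := by
      subst hs
      rw [show (2 * s + 1) ^ 2 = 2 * ((2 * s + 1 + 1) * s) + 1 by ring]
      omega
    rw [h3, pow_mul, hz, one_pow]
  obtain ⟨y, rfl⟩ := hsqz
  have hy0 : y ≠ 0 := fun h => hz0 (by rw [h, zero_mul])
  have hc := isCompl_eig hsq hy0 h2
  have hyq : y ^ (q + 1) * y ^ (q + 1) = 1 := by
    rw [← mul_pow]
    exact hz
  have hyy : y * y ^ q = y ^ (q + 1) := (pow_succ' y q).symm
  have hinvp : (∀ v ∈ eigSp x y, x *ᵥ v ∈ eigSp x y) := by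
    intro v hv
    rw [mem_eigSp.1 hv]
    exact (eigSp x y).smul_mem _ hv
  have hinvm : (∀ v ∈ eigSp x (-y), x *ᵥ v ∈ eigSp x (-y)) := by
    intro v hv
    rw [mem_eigSp.1 hv]
    exact (eigSp x (-y)).smul_mem _ hv
  have two_zero : ∀ t : F, t = -t → t = 0 := by
    intro t ht
    have h3 : (2 : F) * t = 0 := by linear_combination ht
    exact (mul_eq_zero.1 h3).resolve_left h2
  rcases mul_self_eq_one_iff.1 hyq with hy1 | hy1
  · -- the involution case
    have hpm : ∀ u ∈ eigSp x y, ∀ v ∈ eigSp x (-y), ⟪u, v⟫ = 0 := by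
      intro u hu v hv
      have h3 := herm_eig hx hu hv
      rw [pow_q_neg hF, mul_neg, hyy, hy1] at h3
      apply two_zero
      linear_combination h3
    have hmp : ∀ u ∈ eigSp x (-y), ∀ v ∈ eigSp x y, ⟪u, v⟫ = 0 := by
      intro u hu v hv
      have h3 := herm_eig hx hu hv
      rw [neg_mul, hyy, hy1] at h3
      apply two_zero
      linear_combination h3
    have hndp : ∀ u ∈ eigSp x y, (∀ v ∈ eigSp x y, ⟪u, v⟫ = 0) → u = 0 := by
      intro u hu hp
      apply hermForm_nondegenerate_left hF n u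
      intro w
      have hw : w ∈ eigSp x y ⊔ eigSp x (-y) := by rw [hc.sup_eq_top]; trivial
      obtain ⟨a, ha, b, hb, rfl⟩ := Submodule.mem_sup.1 hw
      rw [hermForm_add_right hF, hp a ha, hpm u hu b hb, add_zero]
    have hndm : ∀ u ∈ eigSp x (-y), (∀ v ∈ eigSp x (-y), ⟪u, v⟫ = 0) → u = 0 := by
      intro u hu hp
      apply hermForm_nondegenerate_left hF n u
      intro w
      have hw : w ∈ eigSp x y ⊔ eigSp x (-y) := by rw [hc.sup_eq_top]; trivial
      obtain ⟨a, ha, b, hb, rfl⟩ := Submodule.mem_sup.1 hw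
      rw [hermForm_add_right hF, hp b hb, hmp u hu a ha, zero_add]
    have hab : finrank F (eigSp x y) + finrank F (eigSp x (-y)) = n := by
      have := Submodule.finrank_add_eq_of_isCompl hc
      simpa using this
    obtain ⟨⟨k₁, hk₁⟩, ⟨k₂, hk₂⟩⟩ := even_of_det h2 hy1 hab hn hn0 hv (by rw [← det_of_eig hc]; exact hdet)
    obtain ⟨A₁, B₁, hA₁, hB₁, htA₁, htB₁, hs₁, hi₁⟩ := exists_split hF h2 _ hndp k₁ hk₁
    obtain ⟨A₂, B₂, hA₂, hB₂, htA₂, htB₂, hs₂, hi₂⟩ := exists_split hF h2 _ hndm k₂ hk₂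
    refine ⟨A₁ ⊔ A₂, B₁ ⊔ B₂, ⟨⟨?_, ?_⟩, ?_, ?_⟩, ?_, ?_⟩
    · rw [Submodule.disjoint_def]
      intro u hu hu'
      obtain ⟨a₁, ha₁, a₂, ha₂, rfl⟩ := Submodule.mem_sup.1 hu
      obtain ⟨b₁, hb₁, b₂, hb₂, hb⟩ := Submodule.mem_sup.1 hu'
      have h3 : a₁ - b₁ = b₂ - a₂ := by
        rw [sub_eq_sub_iff_add_eq_add, ← hb, add_comm]
      have h4 : a₁ - b₁ = 0 := by
        apply Submodule.disjoint_def.1 hc.disjoint _ ((eigSp x y).sub_mem (hA₁ ha₁) (hB₁ hb₁))
        rw [h3]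
        exact (eigSp x (-y)).sub_mem (hB₂ hb₂) (hA₂ ha₂)
      have h5 : b₂ - a₂ = 0 := by rw [← h3, h4]
      have h6 : a₁ = 0 := by
        have h7 : a₁ ∈ A₁ ⊓ B₁ := ⟨ha₁, by rw [sub_eq_zero.1 h4]; exact hb₁⟩
        rw [hi₁] at h7
        exact h7
      have h8 : a₂ = 0 := by
        have h7 : a₂ ∈ A₂ ⊓ B₂ := ⟨ha₂, by rw [← sub_eq_zero.1 h5]; exact hb₂⟩
        rw [hi₂] at h7
        exact h7
      rw [h6, h8, add_zero]
    · rw [codisjoint_iff, sup_sup_sup_comm, hs₁, hs₂, hc.sup_eq_top]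
    · intro u hu v hv
      obtain ⟨a₁, ha₁, a₂, ha₂, rfl⟩ := Submodule.mem_sup.1 hu
      obtain ⟨b₁, hb₁, b₂, hb₂, rfl⟩ := Submodule.mem_sup.1 hv
      rw [hermForm_add_left, hermForm_add_right hF, hermForm_add_right hF, htA₁ _ ha₁ _ hb₁, htA₂ _ ha₂ _ hb₂,
        hpm _ (hA₁ ha₁) _ (hA₂ hb₂), hmp _ (hA₂ ha₂) _ (hA₁ hb₁)]
      simp
    · intro u hu v hv
      obtain ⟨a₁, ha₁, a₂, ha₂, rfl⟩ := Submodule.mem_sup.1 hu
      obtain ⟨b₁, hb₁, b₂, hb₂, rfl⟩ := Submodule.mem_sup.1 hv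
      rw [hermForm_add_left, hermForm_add_right hF, hermForm_add_right hF, htB₁ _ ha₁ _ hb₁, htB₂ _ ha₂ _ hb₂,
        hpm _ (hB₁ ha₁) _ (hB₂ hb₂), hmp _ (hB₂ ha₂) _ (hB₁ hb₁)]
      simp
    · intro u hu
      obtain ⟨a₁, ha₁, a₂, ha₂, rfl⟩ := Submodule.mem_sup.1 hu
      rw [Matrix.mulVec_add, mem_eigSp.1 (hA₁ ha₁), mem_eigSp.1 (hA₂ ha₂)]
      exact Submodule.add_mem_sup (A₁.smul_mem _ ha₁) (A₂.smul_mem _ ha₂)
    · intro u hu
      obtain ⟨a₁, ha₁, a₂, ha₂, rfl⟩ := Submodule.mem_sup.1 hu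
      rw [Matrix.mulVec_add, mem_eigSp.1 (hB₁ ha₁), mem_eigSp.1 (hB₂ ha₂)]
      exact Submodule.add_mem_sup (B₁.smul_mem _ ha₁) (B₂.smul_mem _ ha₂)
  · -- `y` of norm `-1`: the eigenspaces are totally singular
    refine ⟨eigSp x y, eigSp x (-y), ⟨hc, ?_, ?_⟩, hinvp, hinvm⟩
    · intro u hu v hv
      have h3 := herm_eig hx hu hv
      rw [hyy, hy1] at h3
      apply two_zero
      linear_combination h3
    · intro u hu v hv
      have h3 := herm_eig hx hu hv
      rw [pow_q_neg hF, neg_mul_neg, hyy, hy1] at h3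
      apply two_zero
      linear_combination h3

end Cfsg.Agent.Lib.Classical.PairU
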