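import Mathlib
import Cfsg.Agent.Lib.Classical.PairU.Invol

/-!
# Elements of prime order of `PSU_n(q)` and pairs of complementary totally singular subspaces
-/

set_option autoImplicit false
set_option linter.unusedSectionVars false
set_option linter.unusedSimpArgs false
set_option linter.unusedVariables false
set_option linter.style.haveILetI false

open scoped Matrix MatrixGroups
open Module
open Cfsg Cfsg.Agent.Lib.Classical.Herm.Basic Cfsg.Agent.Lib.Classical.Herm.Form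
open Cfsg.Agent.Lib.Classical.Herm.GU Cfsg.Agent.Lib.Classical.Herm.SU

namespace Cfsg.Agent.Lib.Classical.PairU

variable {F : Type*} [Field F] [Fintype F] {q n m : ℕ}

local notation "⟪" x ", " y "⟫" => hermForm _ _ q x y

theorem isTIPair_of_decomp {D : Fin 2 → Submodule F (Fin n → F)} {k : ℕ}
    (hD : Cfsg.Geo.IsMDecomposition k D)
    (hDs : ∀ i, Cfsg.Geo.IsTotallySingularFor (hermForm n F q) (D i)) : IsTIPair q (D 0) (D 1) := by
  refine ⟨⟨?_, ?_⟩, hDs 0, hDs 1⟩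
  · exact hD.indep.pairwiseDisjoint (by decide : (0 : Fin 2) ≠ 1)
  · rw [codisjoint_iff, eq_top_iff, ← hD.iSup_eq_top]
    refine iSup_le fun i => ?_
    fin_cases i
    · exact le_sup_left
    · exact le_sup_right

theorem gl_inv_mulVec (g : GL (Fin n) F) (v : Fin n → F) :
    ((g⁻¹ : GL (Fin n) F) : Matrix (Fin n) (Fin n) F) *ᵥ ((g : Matrix (Fin n) (Fin n) F) *ᵥ v) = v := by
  rw [Matrix.mulVec_mulVec, ← Units.val_mul, inv_mul_cancel, Units.val_one, Matrix.one_mulVec]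

theorem gl_mulVec_inv (g : GL (Fin n) F) (v : Fin n → F) :
    (g : Matrix (Fin n) (Fin n) F) *ᵥ (((g⁻¹ : GL (Fin n) F) : Matrix (Fin n) (Fin n) F) *ᵥ v) = v := by
  rw [Matrix.mulVec_mulVec, ← Units.val_mul, mul_inv_cancel, Units.val_one, Matrix.one_mulVec]

/-- A conjugate in the stabilizer gives a pair fixed or interchanged. -/
theorem exists_pair_of_conj {D : Fin 2 → Submodule F (Fin n → F)} (h : IsTIPair q (D 0) (D 1))
    {g x : GL (Fin n) F} (hg : g ∈ Cfsg.GU n F q)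
    (hx : g⁻¹ * x * g ∈ Cfsg.Geo.decompositionStabilizer D) :
    ∃ A B : Submodule F (Fin n → F), IsTIPair q A B ∧
      (((∀ v ∈ A, (x : Matrix (Fin n) (Fin n) F) *ᵥ v ∈ A) ∧ (∀ v ∈ B, (x : Matrix (Fin n) (Fin n) F) *ᵥ v ∈ B)) ∨
       ((∀ v ∈ A, (x : Matrix (Fin n) (Fin n) F) *ᵥ v ∈ B) ∧ (∀ v ∈ B, (x : Matrix (Fin n) (Fin n) F) *ᵥ v ∈ A))) := by
  classical
  have hpres : ∀ u v, ⟪(g : Matrix (Fin n) (Fin n) F) *ᵥ u, (g : Matrix (Fin n) (Fin n) F) *ᵥ v⟫ = ⟪u, v⟫ := hg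
  let φ := Matrix.toLin' (g : Matrix (Fin n) (Fin n) F)
  have hφ : ∀ v, φ v = (g : Matrix (Fin n) (Fin n) F) *ᵥ v := fun v => rfl
  have hinj : Function.Injective φ := by
    intro u v huv
    have := congrArg (fun w => ((g⁻¹ : GL (Fin n) F) : Matrix (Fin n) (Fin n) F) *ᵥ w) huv
    simpa only [hφ, gl_inv_mulVec] using this
  have hP : IsTIPair q ((D 0).map φ) ((D 1).map φ) := by
    refine ⟨⟨?_, ?_⟩, ?_, ?_⟩
    · rw [Submodule.disjoint_def]
      rintro _ ⟨a, ha, rfl⟩ ⟨b, hb, hab⟩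
      have hab' : b = a := hinj hab
      subst hab'
      rw [Submodule.disjoint_def.1 h.compl.disjoint _ ha hb, map_zero]
    · rw [codisjoint_iff, eq_top_iff]
      intro v _
      have hw : ((g⁻¹ : GL (Fin n) F) : Matrix (Fin n) (Fin n) F) *ᵥ v ∈ D 0 ⊔ D 1 := by
        rw [h.compl.sup_eq_top]; trivial
      obtain ⟨a, ha, b, hb, hab⟩ := Submodule.mem_sup.1 hw
      refine Submodule.mem_sup.2 ⟨φ a, Submodule.mem_map_of_mem ha, φ b, Submodule.mem_map_of_mem hb, ?_⟩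
      rw [← map_add, hab, hφ, gl_mulVec_inv]
    · rintro _ ⟨a, ha, rfl⟩ _ ⟨b, hb, rfl⟩
      rw [hφ, hφ, hpres]
      exact h.tiA a ha b hb
    · rintro _ ⟨a, ha, rfl⟩ _ ⟨b, hb, rfl⟩
      rw [hφ, hφ, hpres]
      exact h.tiB a ha b hb
  obtain ⟨σ, hσ⟩ := hx
  have hkey : ∀ i, ∀ v ∈ (D i).map φ, (x : Matrix (Fin n) (Fin n) F) *ᵥ v ∈ (D (σ i)).map φ := by
    rintro i _ ⟨a, ha, rfl⟩
    have h1 : ((g⁻¹ * x * g : GL (Fin n) F) : Matrix (Fin n) (Fin n) F) *ᵥ a ∈ D (σ i) := by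
      rw [← hσ i]
      exact Submodule.mem_map_of_mem ha
    have h2 := Submodule.mem_map_of_mem (f := φ) h1
    have h3 : φ (((g⁻¹ * x * g : GL (Fin n) F) : Matrix (Fin n) (Fin n) F) *ᵥ a) =
        (x : Matrix (Fin n) (Fin n) F) *ᵥ φ a := by
      rw [hφ, hφ, Units.val_mul, Units.val_mul, ← Matrix.mulVec_mulVec, ← Matrix.mulVec_mulVec, gl_mulVec_inv]
    rwa [h3] at h2
  refine ⟨_, _, hP, ?_⟩
  have h01 : σ 0 ≠ σ 1 := fun h => by simpa using σ.injective h
  by_cases h0 : σ 0 = 0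
  · left
    have h1 : σ 1 = 1 := by
      rw [h0] at h01
      omega
    have k0 := hkey 0
    have k1 := hkey 1
    rw [h0] at k0
    rw [h1] at k1
    exact ⟨k0, k1⟩
  · right
    have h0' : σ 0 = 1 := by omega
    have h1 : σ 1 = 0 := by
      rw [h0'] at h01
      omega
    have k0 := hkey 0
    have k1 := hkey 1
    rw [h0'] at k0
    rw [h1] at k1
    exact ⟨k0, k1⟩

/-- A pair fixed by `x` gives a conjugate in the stabilizer. -/
theorem conj_of_fix (hF : Fintype.card F = q ^ 2) (hm : 2 * m = n) (hm0 : 0 < m)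
    {D : Fin 2 → Submodule F (Fin n → F)} (h : IsTIPair q (D 0) (D 1)) {A B : Submodule F (Fin n → F)}
    (h' : IsTIPair q A B) {x : GL (Fin n) F}
    (hxA : ∀ v ∈ A, (x : Matrix (Fin n) (Fin n) F) *ᵥ v ∈ A)
    (hxB : ∀ v ∈ B, (x : Matrix (Fin n) (Fin n) F) *ᵥ v ∈ B) :
    ∃ g ∈ Cfsg.GU n F q ⊓ Cfsg.Geo.specialLinear (Fin n) F, g⁻¹ * x * g ∈ Cfsg.Geo.decompositionStabilizer D := by
  classical
  obtain ⟨g, hg, hgA, hgB⟩ := h.exists_conj hF hm hm0 h'
  have key : ∀ {W W' : Submodule F (Fin n → F)},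
      W.map (Matrix.toLin' (g : Matrix (Fin n) (Fin n) F)) = W' →
      (∀ v ∈ W', (x : Matrix (Fin n) (Fin n) F) *ᵥ v ∈ W') →
      W.map (Matrix.toLin' ((g⁻¹ * x * g : GL (Fin n) F) : Matrix (Fin n) (Fin n) F)) = W := by
    intro W W' hW hxW
    apply map_eq_of_le _ ?_ rfl
    intro v hv
    have h1 : (g : Matrix (Fin n) (Fin n) F) *ᵥ v ∈ W' := by
      rw [← hW]
      exact Submodule.mem_map_of_mem hv
    have h2 := hxW _ h1
    rw [← hW] at h2
    obtain ⟨a, ha, hae⟩ := h2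
    have h3 : ((g⁻¹ * x * g : GL (Fin n) F) : Matrix (Fin n) (Fin n) F) *ᵥ v = a := by
      have h4 : (g : Matrix (Fin n) (Fin n) F) *ᵥ a = (x : Matrix (Fin n) (Fin n) F) *ᵥ ((g : Matrix (Fin n) (Fin n) F) *ᵥ v) := hae
      rw [Units.val_mul, Units.val_mul, ← Matrix.mulVec_mulVec, ← Matrix.mulVec_mulVec, ← h4, gl_inv_mulVec]
    rw [h3]
    exact ha
  refine ⟨g, hg, 1, fun i => ?_⟩
  fin_cases i
  · exact key hgA hxA
  · exact key hgB hxB

/-- An element with `x ^ r = 1`, `r` odd, does not interchange two complementary subspaces. -/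
theorem no_swap_odd {A B : Submodule F (Fin n → F)} (h : IsCompl A B) (hA : A ≠ ⊥) {x : GL (Fin n) F}
    {r : ℕ} (hr : Odd r) (hx : x ^ r = 1)
    (hxA : ∀ v ∈ A, (x : Matrix (Fin n) (Fin n) F) *ᵥ v ∈ B)
    (hxB : ∀ v ∈ B, (x : Matrix (Fin n) (Fin n) F) *ᵥ v ∈ A) : False := by
  have hk : ∀ k : ℕ, ∀ v ∈ A, ((x ^ (2 * k) : GL (Fin n) F) : Matrix (Fin n) (Fin n) F) *ᵥ v ∈ A := by
    intro k
    induction k with
    | zero => intro v hv; simpa using hv
    | succ k ih =>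
      intro v hv
      rw [show 2 * (k + 1) = 1 + 1 + 2 * k by ring, pow_add, pow_add, Units.val_mul, Units.val_mul,
        ← Matrix.mulVec_mulVec, ← Matrix.mulVec_mulVec, pow_one]
      exact hxB _ (hxA _ (ih v hv))
  obtain ⟨k, rfl⟩ := hr
  obtain ⟨v, hv, hv0⟩ := Submodule.exists_mem_ne_zero_of_ne_bot hA
  have h1 := hxA _ (hk k v hv)
  have h2 : (x : Matrix (Fin n) (Fin n) F) *ᵥ (((x ^ (2 * k) : GL (Fin n) F) : Matrix (Fin n) (Fin n) F) *ᵥ v) = v := by
    rw [Matrix.mulVec_mulVec, ← Units.val_mul, ← pow_succ', hx, Units.val_one, Matrix.one_mulVec]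
  rw [h2] at h1
  exact hv0 (Submodule.disjoint_def.1 h.disjoint _ hv h1)

/-- `r` divides `q ^ (2j+1) + 1`: the order of `q`. -/
theorem order_facts {r : ℕ} [Fact r.Prime] (hr2 : r ≠ 2) {j : ℕ} (hj : r ∣ q ^ (2 * j + 1) + 1) :
    orderOf (q : ZMod r) % 4 = 2 ∧ orderOf ((q ^ 2 : ℕ) : ZMod r) ≤ 2 * j + 1 ∧
      (orderOf ((q ^ 2 : ℕ) : ZMod r) = 1 → r ∣ q + 1) := by
  have hr : r.Prime := Fact.out
  have h1 : ((q : ZMod r)) ^ (2 * j + 1) = -1 := by
    have h2 : ((q ^ (2 * j + 1) + 1 : ℕ) : ZMod r) = 0 := (ZMod.natCast_eq_zero_iff _ _).2 hj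
    push_cast at h2
    exact eq_neg_of_add_eq_zero_left h2
  have hne : (-1 : ZMod r) ≠ 1 := by
    haveI : Fact (2 < r) := ⟨lt_of_le_of_ne hr.two_le (Ne.symm hr2)⟩
    exact ZMod.neg_one_ne_one
  have h2 : ((q : ZMod r)) ^ (2 * (2 * j + 1)) = 1 := by
    rw [mul_comm, pow_mul, h1]
    simp
  have h3 : ¬ orderOf (q : ZMod r) ∣ 2 * j + 1 := by
    intro h4
    have := orderOf_dvd_iff_pow_eq_one.1 h4
    rw [h1] at this
    exact hne this
  have h4 : orderOf (q : ZMod r) ∣ 2 * (2 * j + 1) := orderOf_dvd_of_pow_eq_one h2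
  have hev : Even (orderOf (q : ZMod r)) := by
    by_contra hodd
    rw [Nat.not_even_iff_odd] at hodd
    exact h3 ((Nat.Coprime.dvd_mul_left (Nat.coprime_two_right.2 hodd)).1 h4)
  obtain ⟨b, hb⟩ := hev
  have hb2 : orderOf (q : ZMod r) = 2 * b := by omega
  have hb3 : b ∣ 2 * j + 1 := by
    rw [hb2] at h4
    exact Nat.dvd_of_mul_dvd_mul_left (by norm_num) h4
  have hbodd : Odd b := Odd.of_dvd_nat (odd_two_mul_add_one j) hb3
  have hord2 : orderOf ((q ^ 2 : ℕ) : ZMod r) = b := by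
    push_cast
    rw [orderOf_pow' _ (by norm_num), hb2, Nat.gcd_eq_right (dvd_mul_right 2 b),
      Nat.mul_div_cancel_left _ (by norm_num)]
  refine ⟨?_, ?_, ?_⟩
  · obtain ⟨c, hc⟩ := hbodd
    rw [hb2, hc]
    omega
  · rw [hord2]
    exact Nat.le_of_dvd (by omega) hb3
  · intro hb1
    rw [hord2] at hb1
    rw [hb1] at hb2
    have hq2 : (q : ZMod r) ^ 2 = 1 := by
      have h5 := pow_orderOf_eq_one (q : ZMod r)
      rwa [hb2] at h5
    have hq1 : (q : ZMod r) ≠ 1 := by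
      intro h5
      rw [h5, orderOf_one] at hb2
      omega
    have h5 : (q : ZMod r) = -1 := by
      have : (q : ZMod r) * (q : ZMod r) = 1 := by rw [← sq]; exact hq2
      exact (mul_self_eq_one_iff.1 this).resolve_left hq1
    rw [← ZMod.natCast_eq_zero_iff]
    push_cast
    rw [h5]
    ring

/-- The main theorem. -/
theorem main {p : ℕ} [Fact p.Prime] [CharP F p] (hq : Fintype.card F = q ^ 2)
    (hn : 4 ≤ n) (he : Even n) (D : Fin 2 → Submodule F (Fin n → F)) (hD : Cfsg.Geo.IsMDecomposition (n / 2) D)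
    (hDs : ∀ i, Cfsg.Geo.IsTotallySingularFor (Cfsg.hermForm n F q) (D i))
    (r : ℕ) [Fact r.Prime]
    (hΩ : r ∣ (Cfsg.Geo.decompositionStabilizer D).relIndex (Cfsg.GU n F q ⊓ Cfsg.Geo.specialLinear (Fin n) F)) :
    (∀ x ∈ Cfsg.GU n F q ⊓ Cfsg.Geo.specialLinear (Fin n) F, (∃ z : F, ((x ^ r : GL (Fin n) F) : Matrix (Fin n) (Fin n) F) = z • (1 : Matrix (Fin n) (Fin n) F)) →
      (∀ z : F, (x : Matrix (Fin n) (Fin n) F) ≠ z • (1 : Matrix (Fin n) (Fin n) F)) →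
      ∃ g ∈ Cfsg.GU n F q ⊓ Cfsg.Geo.specialLinear (Fin n) F, g⁻¹ * x * g ∈ Cfsg.Geo.decompositionStabilizer D) ↔
    (r = 2 ∧ Odd q ∧ padicValNat 2 (q + 1) ≤ padicValNat 2 n) := by
  classical
  have hr : r.Prime := Fact.out
  have hP := isTIPair_of_decomp hD hDs
  obtain ⟨m, hm⟩ : ∃ m, 2 * m = n := ⟨n / 2, by obtain ⟨k, hk⟩ := he; omega⟩
  have hm2 : 2 ≤ m := by omega
  have hm0 : 0 < m := by omega
  have hq2 := two_le_q hq
  constructor
  · intro hall
    have hfr : ∀ {A B : Submodule F (Fin n → F)}, IsTIPair q A B → finrank F A = m := by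
      intro A B hAB
      have := hAB.two_mul_finrank hq
      omega
    -- `r ≠ p`
    have hrp : r ≠ p := by
      rintro rfl
      obtain ⟨x, c, v, hxT, hc0, hv0, hx, hxp, hns⟩ := exists_tv hq (n := n) (by omega) r
      obtain ⟨g, hg, hgx⟩ := hall x hxT ⟨1, by rw [hxp]; simp⟩ hns
      obtain ⟨A, B, hAB, hfix | hswap⟩ := exists_pair_of_conj hP (Subgroup.mem_inf.1 hg).1 hgx
      · exact no_fix_tv hq hAB hfix.1 hfix.2 hc0 hv0 hx
      · refine no_swap hAB (by rw [hfr hAB]; exact hm2) hswap.1 (one_ne_zero) (w := v) ?_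
        intro u hu
        rw [hx, hu]
        simp
    have hpq : ∃ k, q = p ^ k := by
      obtain ⟨p', k, hp', hc', hqk⟩ := exists_char_pow hq
      have := CharP.eq F hc' ‹CharP F p›
      exact ⟨k, by rw [hqk, this]⟩
    obtain ⟨k, hk⟩ := hpq
    have hpp : p.Prime := Fact.out
    by_cases hr2 : r = 2
    · subst hr2
      have hodd : Odd q := by
        rw [hk]
        apply Odd.pow
        exact hpp.odd_of_ne_two (Ne.symm hrp)
      refine ⟨rfl, hodd, ?_⟩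
      by_contra hv
      rw [not_le] at hv
      obtain ⟨x, hxT, hxs, hns, hnf, l, e, hl, hxe⟩ := exists_sign_elt hq hodd (n := n) (by omega) hv
      obtain ⟨g, hg, hgx⟩ := hall x hxT hxs hns
      obtain ⟨A, B, hAB, hfix | hswap⟩ := exists_pair_of_conj hP (Subgroup.mem_inf.1 hg).1 hgx
      · exact hnf A B hAB hfix.1 hfix.2
      · exact no_swap hAB (by rw [hfr hAB]; exact hm2) hswap.1 hl hxe
    · exfalso
      have hrodd : Odd r := hr.odd_of_ne_two hr2
      have h1 := dvd_of_relIndex hq hm hm0 hP hr hΩ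
      have hnq : ¬ r ∣ q := by
        intro h2
        rw [hk] at h2
        exact hrp ((Nat.prime_dvd_prime_iff_eq hr hpp).1 (hr.dvd_of_dvd_pow h2))
      have h2 : r ∣ ∏ j ∈ Finset.range m, (q ^ (2 * j + 1) + 1) := by
        rcases (Nat.Prime.dvd_mul hr).1 h1 with h3 | h3
        · exact absurd (hr.dvd_of_dvd_pow h3) hnq
        · exact h3
      obtain ⟨j, hj, hjr⟩ := (Prime.dvd_finsetProd_iff hr.prime _).1 h2
      have hjm : j < m := Finset.mem_range.1 hj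
      obtain ⟨hi, hbj, hb1⟩ := order_facts hr2 hjr
      have hex : ∃ x : GL (Fin n) F, x ∈ Cfsg.GU n F q ⊓ Cfsg.Geo.specialLinear (Fin n) F ∧ x ^ r = 1 ∧
          (∀ z : F, (x : Matrix (Fin n) (Fin n) F) ≠ z • (1 : Matrix (Fin n) (Fin n) F)) ∧
          NoFix q (x : Matrix (Fin n) (Fin n) F) := by
        have hbpos : 0 < orderOf ((q ^ 2 : ℕ) : ZMod r) := by
          rw [orderOf_pos_iff, isOfFinOrder_iff_pow_eq_one]
          refine ⟨2 * j + 1, by omega, ?_⟩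
          have h3 : ((q : ZMod r)) ^ (2 * j + 1) = -1 := by
            have h4 : ((q ^ (2 * j + 1) + 1 : ℕ) : ZMod r) = 0 := (ZMod.natCast_eq_zero_iff _ _).2 hjr
            push_cast at h4
            exact eq_neg_of_add_eq_zero_left h4
          push_cast
          rw [← pow_mul, mul_comm, pow_mul, h3]
          simp
        by_cases hb : orderOf ((q ^ 2 : ℕ) : ZMod r) = 1
        · exact exists_diag_elt hq (by omega) hr2 (hb1 hb)
        · exact exists_block_elt hq (p := p) hr2 hrp hi (by omega) (by omega)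
      obtain ⟨x, hxT, hxr, hns, hnf⟩ := hex
      obtain ⟨g, hg, hgx⟩ := hall x hxT ⟨1, by rw [hxr]; simp⟩ hns
      obtain ⟨A, B, hAB, hfix | hswap⟩ := exists_pair_of_conj hP (Subgroup.mem_inf.1 hg).1 hgx
      · exact hnf A B hAB hfix.1 hfix.2
      · refine no_swap_odd hAB.compl ?_ hrodd hxr hswap.1 hswap.2
        intro hbot
        have := hfr hAB
        rw [hbot] at this
        simp at this
        omega
  · rintro ⟨rfl, hodd, hv⟩ x hxT ⟨z, hz⟩ hns
    have hxT' := Subgroup.mem_inf.1 hxT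
    have hsq : (x : Matrix (Fin n) (Fin n) F) * (x : Matrix (Fin n) (Fin n) F) = z • (1 : Matrix (Fin n) (Fin n) F) := by
      rw [← hz, Units.val_pow_eq_pow_val, sq]
    obtain ⟨A, B, hAB, hxA, hxB⟩ := exists_pair_of_sq hq hodd hxT'.1 ((mem_specialLinear_iff x).1 hxT'.2) hsq he
      (by omega) hv
    exact conj_of_fix hq hm hm0 hP hAB hxA hxB

end Cfsg.Agent.Lib.Classical.PairU
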